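import Cfsg.Agent.Lib.Chev.Univ.Certs
import Cfsg.Agent.Lib.Chev.Abstract.Present

/-! Homomorphisms of covers induced by subsystems of roots with the same structure constants. -/
set_option autoImplicit false
set_option maxRecDepth 100000
open Cfsg.Lie
open scoped Matrix MatrixGroups

namespace CfsgLib.Chev.Univ

open CfsgLib.Chev CfsgLib.Chev.Checks CfsgLib.Chev.Basic CfsgLib.Chev.Abstract

/-- `io` carries the rows of structure constants of `D₀` to those of `D` -/
def subOK (D₀ D : ChevalleyDatum) (io : List ℕ) : Bool :=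
  io.length == D₀.nroots && io.all (fun x => decide (x < D.nroots)) && decide io.Nodup &&
    decide (D₀.rank ≤ D.rank) &&
    ((List.range D₀.rank).all fun i => io.getD (D₀.simple i) 0 == D.simple i) &&
    (List.range D₀.nroots).all fun r =>
      (io.getD (D₀.neg r) 0 == D.neg (io.getD r 0)) &&
      ((D₀.chain.getD r #[]).toList.map fun e =>
          (io.getD e.1 0, e.2.toList.map fun c => (io.getD c.1 0, c.2))) ==
        ((D.chain.getD (io.getD r 0) #[]).toList.filter fun e => io.contains e.1).map fun e => (e.1, e.2.toList)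

theorem subE6 : subOK chevE6 chevE8 ioE6 = true := by decide +kernel

theorem subE7 : subOK chevE7 chevE8 ioE7 = true := by decide +kernel

theorem find?_filter_map {α β : Type*} [DecidableEq α] (p : α → Bool) (f : β → α × List (α × ℤ)) (l : List β) (a : α)
    (ha : p a = true) :
    ((l.filter fun e => p (f e).1).map f).find? (fun e => e.1 = a) = (l.map f).find? (fun e => e.1 = a) := by
  induction l with
  | nil => rfl
  | cons x l ih =>
    by_cases hx : (f x).1 = a
    · simp [hx, ha]
    · by_cases hp : p (f x).1 = true <;> simp [hp, hx, ih]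

theorem find?_congr' {β : Type*} {p q : β → Bool} : ∀ {l : List β}, (∀ x ∈ l, p x = q x) → l.find? p = l.find? q
  | [], _ => rfl
  | x :: l, h => by
    rw [List.find?_cons, List.find?_cons, h x List.mem_cons_self,
      find?_congr' fun y hy => h y (List.mem_cons_of_mem _ hy)]

variable {D₀ D : ChevalleyDatum} {io : List ℕ}

theorem sub_spec (h : subOK D₀ D io = true) :
    io.length = D₀.nroots ∧ (∀ r < D₀.nroots, io.getD r 0 < D.nroots) ∧
    (∀ r < D₀.nroots, ∀ s < D₀.nroots, io.getD r 0 = io.getD s 0 → r = s) ∧ D₀.rank ≤ D.rank ∧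
    (∀ i < D₀.rank, io.getD (D₀.simple i) 0 = D.simple i) ∧
    (∀ r < D₀.nroots, io.getD (D₀.neg r) 0 = D.neg (io.getD r 0)) ∧
    ∀ r < D₀.nroots, ((D₀.chain.getD r #[]).toList.map fun e =>
          (io.getD e.1 0, e.2.toList.map fun c => (io.getD c.1 0, c.2))) =
        ((D.chain.getD (io.getD r 0) #[]).toList.filter fun e => io.contains e.1).map fun e => (e.1, e.2.toList) := by
  simp only [subOK, Bool.and_eq_true, beq_iff_eq, List.all_eq_true, decide_eq_true_eq, List.mem_range] at h
  obtain ⟨⟨⟨⟨⟨h1, h2⟩, h3⟩, h4⟩, h5⟩, h6⟩ := h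
  refine ⟨h1, fun r hr => ?_, fun r hr s hs e => ?_, h4, h5, fun r hr => (h6 r hr).1, fun r hr => (h6 r hr).2⟩
  · rw [List.getD_eq_getElem _ _ (h1 ▸ hr)]; exact h2 _ (List.getElem_mem _)
  · rw [List.getD_eq_getElem _ _ (h1 ▸ hr), List.getD_eq_getElem _ _ (h1 ▸ hs)] at e
    exact h3.getElem_inj_iff.1 e

theorem chainEntry_sub (h₀ : rowsOK D₀ = true) (h : subOK D₀ D io = true) {r s : ℕ} (hr : r < D₀.nroots)
    (hs : s < D₀.nroots) :
    D.chainEntry (io.getD r 0) (io.getD s 0) = (D₀.chainEntry r s).map fun c => (io.getD c.1 0, c.2) := by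
  obtain ⟨h1, -, hinj, -, -, -, hrow⟩ := sub_spec h
  have hlt : ∀ e ∈ (D₀.chain.getD r #[]).toList, e.1 < D₀.nroots := fun e he => by
    have := h₀
    simp only [rowsOK, List.all_eq_true, List.mem_range, Bool.and_eq_true, decide_eq_true_eq] at this
    exact (this r hr e he).1.1.1
  have hmem : io.contains (io.getD s 0) = true := by
    rw [List.contains_iff_mem, List.getD_eq_getElem _ _ (h1 ▸ hs)]; exact List.getElem_mem _
  have e := congrArg (fun l => List.find? (fun e => e.1 = io.getD s 0) l) (hrow r hr)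
  have hh := find?_filter_map (fun a => io.contains a) (fun e : ℕ × Array (ℕ × ℤ) => (e.1, e.2.toList))
    (D.chain.getD (io.getD r 0) #[]).toList _ hmem
  dsimp only at hh
  rw [hh, List.find?_map, List.find?_map,
    find?_congr' (q := fun e => decide (e.1 = s))] at e
  · unfold ChevalleyDatum.chainEntry
    simp only [Function.comp_def] at e
    cases h8 : (D.chain.getD (io.getD r 0) #[]).toList.find? (fun e => decide (e.1 = io.getD s 0)) <;>
      cases h6 : (D₀.chain.getD r #[]).toList.find? (fun e => decide (e.1 = s)) <;>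
      rw [h8, h6] at e <;> simp_all
  · intro x hx
    simp only [Function.comp_apply, decide_eq_decide]
    exact ⟨hinj _ (hlt x hx) _ hs, fun h => by rw [h]⟩

theorem commTerms_sub (h₀ : rowsOK D₀ = true) (hr8 : rowsOK D = true) (h : subOK D₀ D io = true) {r s : ℕ}
    (hr : r < D₀.nroots) (hs : s < D₀.nroots) :
    D.commTerms (io.getD r 0) (io.getD s 0) = (D₀.commTerms r s).map fun c => (io.getD c.1 0, c.2) := by
  obtain ⟨-, hlt, -⟩ := sub_spec h
  rw [commTerms_eq hr8 (hlt r hr) (hlt s hs), commTerms_eq h₀ hr hs, chainEntry_sub h₀ h hr hs, List.map_map,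
    List.map_map]
  rfl

variable {F : Type*} [Field F]

/-- the induced map of the cover into the larger group -/
theorem exists_embed (hD₀ : D₀ ∈ dataList) (hD : D ∈ dataList) (h₀ : rowsOK D₀ = true) (hr8 : rowsOK D = true)
    (h : subOK D₀ D io = true) : ∃ ψ : D₀.SteinbergCover F →* GL D.Idx F, ∀ i, i < D₀.rank → ∀ t : F,
      ψ (PresentedGroup.mk _ (D₀.stH (D₀.simple i) t)) = hGL hD F (D.simple i) t := by
  classical
  obtain ⟨-, hlt, hinj, -, hsimp, hneg, -⟩ := sub_spec h
  let f : Fin D₀.nroots × F → GL D.Idx F := fun q => xGL hD F (io.getD q.1 0) q.2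
  have hf : ∀ r, r < D₀.nroots → ∀ t : F, FreeGroup.lift f (D₀.stX r t) = xGL hD F (io.getD r 0) t :=
    fun r hr t => by simp [ChevalleyDatum.stX, hr, f]
  have hw : ∀ w : List (ℕ × F), (∀ p ∈ w, p.1 < D₀.nroots) →
      FreeGroup.lift f (D₀.stWord w) = (w.map fun p => xGL hD F (io.getD p.1 0) p.2).prod := fun w hw => by
    rw [ChevalleyDatum.stWord, map_list_prod, List.map_map]
    congr 1
    exact List.map_congr_left fun p hp => hf p.1 (hw p hp) p.2
  have hrels : ∀ x ∈ D₀.steinbergRelsAB F, FreeGroup.lift f x = 1 := by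
    rintro x (⟨r, t, u, hr, rfl⟩ | ⟨r, s, t, u, hr, hs, h1, h2, rfl⟩)
    · rw [map_mul, map_mul, map_inv, hf r hr, hf r hr, hf r hr, Rel.xGL_add hD (hlt r hr), mul_inv_cancel]
    · have hcl : ∀ p ∈ D₀.commWord F r s t u, p.1 < D₀.nroots := fun p hp => by
        obtain ⟨c, hc, rfl⟩ := List.mem_map.1 hp
        exact Orbit.commTerms_lt (Rel.tab_valid hD₀) hr hs hc
      have e : ((D₀.commWord F r s t u).map fun p => xGL hD F (io.getD p.1 0) p.2).prod =
          Rel.wordGL hD (D.commWord F (io.getD r 0) (io.getD s 0) t u) := by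
        unfold Rel.wordGL ChevalleyDatum.commWord
        rw [commTerms_sub h₀ hr8 h hr hs]
        simp only [List.map_map]
        rfl
      simp only [map_mul, map_inv, hf r hr, hf s hs, hw _ hcl, e, mul_inv_eq_one]
      rw [mul_assoc _ (xGL hD F (io.getD s 0) u),
        Rel.comm_GL hD (hlt r hr) (hlt s hs) (fun q => h1 (hinj s hs r hr q))
          (fun q => h2 (hinj s hs _ (Checks.neg_lt hD₀ hr) (q.trans (hneg r hr).symm)))]
      group
  refine ⟨PresentedGroup.toGroup hrels, fun i hi t => ?_⟩
  have hp := Rel.simple_lt hD₀ hi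
  have hgen : ∀ r, r < D₀.nroots → ∀ t : F, PresentedGroup.toGroup hrels (PresentedGroup.mk _ (D₀.stX r t)) =
      xGL hD F (io.getD r 0) t := fun r hr t => by
    simp only [ChevalleyDatum.stX, hr, dite_true]
    exact PresentedGroup.toGroup.of hrels
  rw [ChevalleyDatum.stH, mk_word]
  simp only [ChevalleyDatum.hWord, ChevalleyDatum.nWord, List.map_append, List.map_cons, List.map_nil,
    List.prod_append, List.prod_cons, List.prod_nil, mul_one, map_mul, hgen _ hp, hgen _ (Checks.neg_lt hD₀ hp),
    hneg _ hp, hsimp i hi]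
  refine Units.ext ?_
  rw [hGL_val]
  simp [ChevalleyDatum.hMat, ChevalleyDatum.hWord, ChevalleyDatum.nWord, ChevalleyDatum.wordMat, xGL_val, mul_assoc]

end CfsgLib.Chev.Univ
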