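import Cfsg.Agent.Lib.Chev.Univ.R3
import Cfsg.Agent.Lib.Chev.Univ.Embed
import Cfsg.Prelude.Def_KGroupFacts

/-! Schur multipliers of simply-laced Chevalley groups over finite fields. -/
set_option autoImplicit false
set_option maxRecDepth 100000
open Cfsg.Lie
open scoped Matrix MatrixGroups commutatorElement

namespace CfsgLib.Chev.Univ

open CfsgLib.Chev CfsgLib.Chev.Checks CfsgLib.Chev.Basic CfsgLib.Chev.Abstract

universe u

variable {D : ChevalleyDatum} {F : Type*} [Field F] {hD : D ∈ dataList} {G : Type*} [Group G] (S : Sys hD F G)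

theorem h_commute {i j : ℕ} (hi : i < D.rank) (hj : j < D.rank)
    (hR3 : ∀ i, i < D.rank → ∀ t u : F, t ≠ 0 → u ≠ 0 → S.h (D.simple i) t * S.h (D.simple i) u = S.h (D.simple i) (t * u))
    {c t : F} (hc0 : c ≠ 0) (ht : t ≠ 0) : Commute (S.h (D.simple j) c) (S.h (D.simple i) t) := by
  have hp := Rel.simple_lt hD hi
  set a := c ^ D.cartan j (D.simple i) with ha
  have ha0 : a ≠ 0 := zpow_ne_zero _ hc0
  have hn : ∀ x : F, S.h (D.simple j) c * S.n (D.simple i) x * (S.h (D.simple j) c)⁻¹ = S.n (D.simple i) (a * x) := by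
    intro x
    have h1 := S.h_conj hj hp hc0 x
    have h2 := S.h_conj hj (Checks.neg_lt hD hp) hc0 (-x⁻¹)
    rw [Weight.cartan_neg hD hj hp, zpow_neg, mul_neg, ← mul_inv] at h2
    rw [Sys.n, show S.h (D.simple j) c * (S.X (D.simple i) x * S.X (D.neg (D.simple i)) (-x⁻¹) * S.X (D.simple i) x) *
        (S.h (D.simple j) c)⁻¹ = (S.h (D.simple j) c * S.X (D.simple i) x * (S.h (D.simple j) c)⁻¹) *
        (S.h (D.simple j) c * S.X (D.neg (D.simple i)) (-x⁻¹) * (S.h (D.simple j) c)⁻¹) *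
        (S.h (D.simple j) c * S.X (D.simple i) x * (S.h (D.simple j) c)⁻¹) by group, h1, h2, Sys.n]
  have e : S.h (D.simple j) c * S.h (D.simple i) t * (S.h (D.simple j) c)⁻¹ = S.h (D.simple i) t := by
    calc S.h (D.simple j) c * S.h (D.simple i) t * (S.h (D.simple j) c)⁻¹
        = (S.h (D.simple j) c * S.n (D.simple i) t * (S.h (D.simple j) c)⁻¹) *
          (S.h (D.simple j) c * S.n (D.simple i) (-1) * (S.h (D.simple j) c)⁻¹) := by rw [Sys.h.eq_def S (D.simple i) t]; group
      _ = S.h (D.simple i) (a * t) * (S.h (D.simple i) a)⁻¹ := by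
          rw [hn, hn, mul_neg, mul_one, Sys.h, Sys.h, S.n_neg hp]; group
      _ = _ := by rw [mul_comm a t, ← hR3 i hi t a ht ha0]; group
  exact mul_inv_eq_iff_eq_mul.1 e

/-- the torus of the cover -/
theorem exists_phi
    (hR3 : ∀ i, i < D.rank → ∀ t u : F, t ≠ 0 → u ≠ 0 → S.h (D.simple i) t * S.h (D.simple i) u = S.h (D.simple i) (t * u)) :
    ∃ φ : (Fin D.rank → Fˣ) →* G, (∀ i t, φ (Pi.mulSingle i t) = S.h (D.simple i) (t : F)) ∧
      S.θ.comp φ = Torus.torusHom D F ∧ S.Hbar ≤ φ.range := by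
  let f : (i : Fin D.rank) → Fˣ →* G := fun i =>
    MonoidHom.mk' (fun t : Fˣ => S.h (D.simple i) t) fun t u => by
      rw [Units.val_mul]; exact (hR3 i i.2 t u t.ne_zero u.ne_zero).symm
  let φ := MonoidHom.noncommPiCoprod f (fun i j _ x y => h_commute S j.2 i.2 hR3 x.ne_zero y.ne_zero)
  refine ⟨φ, fun i t => MonoidHom.noncommPiCoprod_mulSingle _ _ _, MonoidHom.pi_ext fun i t => ?_,
    (Subgroup.closure_le _).2 ?_⟩
  · rw [MonoidHom.comp_apply, Torus.torus_simple hD]
    erw [MonoidHom.noncommPiCoprod_mulSingle]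
    exact S.θ_h (Rel.simple_lt hD i.2) t
  · rintro g ⟨i, t, hi, ht, rfl⟩
    exact ⟨Pi.mulSingle ⟨i, hi⟩ (Units.mk0 t ht), MonoidHom.noncommPiCoprod_mulSingle _ _ _⟩

/-- every simple root has a neighbour -/
def adjOK (D : ChevalleyDatum) : Bool :=
  (List.range D.rank).all fun i => (List.range D.rank).any fun j => D.cartan j (D.simple i) == -1

theorem multiplier {D : ChevalleyDatum} (hD : D ∈ dataList) {F : Type u} [Field F] [Finite F] (C : Cert)
    (hC : certOK D C = true) (hb : D ∈ [chevD4, chevF4, chevE6, chevE7, chevE8]) (hadj : adjOK D = true)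
    (hinj : ∀ φ : (Fin D.rank → Fˣ) →* D.SteinbergCover F,
      (∀ i t, φ (Pi.mulSingle i t) = PresentedGroup.mk (D.steinbergRelsAB F) (D.stH (D.simple i) (t : F))) →
      ∀ c, Torus.torusHom D F c = 1 → φ c = 1 → c = 1)
    {n : ℕ} (hn : Nat.card (Torus.torusKer D F) = n) (hp : n = 1 ∨ n.Prime) :
    Cfsg.HasCyclicSchurMultiplier ↥(D.group F) n := by
  classical
  set π := onto (F := F) hD (relsAB_subset (D := D)) with hπdef
  let S := sys hD (R := D.steinbergRelsAB F) subset_rfl (canon hD relsAB_subset) fun _ hr t => canon_X hD _ hr t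
  have hgen : S.Gen := sys_gen _ _ _ _
  have hcen : S.θ.ker ≤ Subgroup.center _ := S.ker_le_center hgen
  have hperf : commutator (D.SteinbergCover F) = ⊤ := S.perfect_big hgen hb
  have hkθ : π.ker = S.θ.ker := onto_ker hD _
  have hR3 : ∀ i, i < D.rank → ∀ t u : F, t ≠ 0 → u ≠ 0 →
      S.h (D.simple i) t * S.h (D.simple i) u = S.h (D.simple i) (t * u) := fun i hi t u ht hu => by
    simp only [adjOK, List.all_eq_true, List.any_eq_true, List.mem_range, beq_iff_eq] at hadj
    obtain ⟨j, hj, hij⟩ := hadj i hi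
    exact r3 S hgen hi hj hij ht hu
  obtain ⟨φ, hφ, hθφ, hH⟩ := exists_phi S hR3
  have hker : ∀ g ∈ π.ker, ∃ c, Torus.torusHom D F c = 1 ∧ φ c = g := fun g hg => by
    rw [hkθ] at hg
    obtain ⟨c, rfl⟩ := hH (S.ker_le_Hbar hgen hg)
    exact ⟨c, by rw [← hθφ]; exact hg, rfl⟩
  let ψ : Torus.torusKer D F →* π.ker := (φ.comp (Torus.torusKer D F).subtype).codRestrict π.ker fun c => by
    rw [hkθ, MonoidHom.mem_ker]
    have := congrArg (fun f => f (c : Fin D.rank → Fˣ)) hθφ
    exact this.trans c.2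
  have hψ : Function.Bijective ψ := by
    constructor
    · rw [injective_iff_map_eq_one]
      intro c hc
      refine Subtype.ext (hinj φ (fun i t => ?_) c c.2 (congrArg Subtype.val hc))
      rw [hφ, sys_h]
    · rintro ⟨g, hg⟩
      obtain ⟨c, hc, rfl⟩ := hker g hg
      exact ⟨⟨c, hc⟩, rfl⟩
  have hcard : Nat.card π.ker = n := by rw [← Nat.card_congr (Equiv.ofBijective ψ hψ), hn]
  have : Finite π.ker := Finite.of_equiv _ (Equiv.ofBijective ψ hψ)
  have : Finite (D.SteinbergCover F) := by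
    have : Finite ↥(D.group F) := inferInstance
    refine Nat.finite_of_card_ne_zero ?_
    rw [← Subgroup.card_mul_index π.ker, Subgroup.index_ker]
    exact mul_ne_zero Nat.card_pos.ne' Nat.card_pos.ne'
  have : IsCyclic π.ker := by
    rcases hp with rfl | hp
    · have := (Nat.card_eq_one_iff_unique.1 hcard).1
      exact isCyclic_of_subsingleton
    · have := Fact.mk hp
      exact isCyclic_of_prime_card hcard
  have eA : Multiplicative (ZMod n) ≃* π.ker := hcard ▸ zmodCyclicMulEquiv this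
  refine ⟨⟨D.SteinbergCover F, inferInstance, inferInstance, π,
    ⟨onto_surjective hD _, hkθ ▸ hcen, hperf ▸ le_top⟩, ⟨eA.symm⟩⟩, fun Γ _ _ σ hσ => ?_⟩
  obtain ⟨hsurj, hc, hder⟩ := hσ
  let SB : Sys hD F ↥(D.group F) :=
    { X := fun r t => π (S.X r t)
      add := fun r hr t u => by rw [← map_mul, S.add r hr]
      comm := fun r s hr hs h1 h2 t u => by
        rw [← map_mul, S.comm r s hr hs h1 h2 t u, map_mul, map_mul, map_list_prod, List.map_map]
        rfl
      θ := (D.group F).subtype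
      θX := fun r hr t => canon_X hD (relsAB_subset (D := D)) hr t }
  obtain ⟨τ, hτ⟩ := exists_splitting SB σ hsurj hc C hC
  have hστ : ∀ x, σ (τ x) = π x := by
    intro x
    have hx : x ∈ Subgroup.closure {g : D.SteinbergCover F | ∃ r t, r < D.nroots ∧ g = S.X r t} :=
      hgen ▸ Subgroup.mem_top x
    refine (MonoidHom.eqOn_closure (f := σ.comp τ) (g := π) ?_ hx : _)
    rintro _ ⟨r, t, hr, rfl⟩
    exact hτ r hr t
  have hΓ : commutator Γ ≤ τ.range := by
    rw [commutator_eq_closure, Subgroup.closure_le]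
    rintro _ ⟨a, b, rfl⟩
    obtain ⟨x, hx⟩ := onto_surjective hD _ (σ a)
    obtain ⟨y, hy⟩ := onto_surjective hD _ (σ b)
    exact ⟨⁅x, y⁆, by rw [map_commutatorElement, bracket_congr σ hc ((hστ x).trans hx) ((hστ y).trans hy)]⟩
  have hτs : Function.Surjective τ := fun g => by
    obtain ⟨x, hx⟩ := onto_surjective hD _ (σ g)
    obtain ⟨z, hz, e⟩ := eq_mul_central σ hc ((hx.symm).trans (hστ x).symm)
    have hzk : z ∈ σ.ker := by
      rw [MonoidHom.mem_ker]
      have := congrArg σ e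
      rw [map_mul, hστ, hx, eq_comm, mul_eq_left] at this
      exact this
    obtain ⟨w, hw⟩ := hΓ (hder hzk)
    exact ⟨x * w, by rw [map_mul, hw, e]⟩
  let ρ : π.ker →* σ.ker := (τ.comp π.ker.subtype).codRestrict σ.ker fun x => by
    rw [MonoidHom.mem_ker, MonoidHom.comp_apply, hστ]; exact x.2
  refine ⟨ρ.comp eA.toMonoidHom, fun g => ?_⟩
  obtain ⟨x, hx⟩ := hτs g
  have hxk : x ∈ π.ker := by rw [MonoidHom.mem_ker, ← hστ, hx]; exact g.2
  exact ⟨eA.symm ⟨x, hxk⟩, Subtype.ext (by simp [ρ, hx])⟩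

/-- injectivity of the torus of the cover through a larger simply connected group -/
theorem inj_of_sub {D₀ D : ChevalleyDatum} (hD₀ : D₀ ∈ dataList) (hD : D ∈ dataList) {io : List ℕ}
    {F : Type u} [Field F] (h₀ : rowsOK D₀ = true) (h8 : rowsOK D = true) (h : subOK D₀ D io = true)
    (hT : Function.Injective (Torus.torusHom D F)) (φ : (Fin D₀.rank → Fˣ) →* D₀.SteinbergCover F)
    (hφ : ∀ i t, φ (Pi.mulSingle i t) = PresentedGroup.mk (D₀.steinbergRelsAB F) (D₀.stH (D₀.simple i) (t : F)))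
    (c : Fin D₀.rank → Fˣ) (hc : φ c = 1) : c = 1 := by
  obtain ⟨ψ, hψ⟩ := exists_embed (F := F) hD₀ hD h₀ h8 h
  obtain ⟨-, -, -, hle, -, -, -⟩ := sub_spec h
  let ext : (Fin D₀.rank → Fˣ) →* (Fin D.rank → Fˣ) := MonoidHom.mk'
    (fun c k => if hk : k.1 < D₀.rank then c ⟨k.1, hk⟩ else 1) fun a b => by
      funext k; by_cases hk : k.1 < D₀.rank <;> simp [hk]
  have he : ψ.comp φ = (Torus.torusHom D F).comp ext := by
    refine MonoidHom.pi_ext fun i t => ?_
    rw [MonoidHom.comp_apply, MonoidHom.comp_apply, hφ, hψ i i.2,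
      show ext (Pi.mulSingle i t) = Pi.mulSingle (Fin.castLE hle i) t by
        funext k
        by_cases hk : k.1 < D₀.rank
        · by_cases hik : k = Fin.castLE hle i
          · subst hik; simp [ext, i.2]
          · have : (⟨k.1, hk⟩ : Fin D₀.rank) ≠ i := fun e => hik (Fin.ext (by simpa using congrArg Fin.val e))
            simp [ext, hk, Pi.mulSingle_eq_of_ne hik, Pi.mulSingle_eq_of_ne this]
        · have hik : k ≠ Fin.castLE hle i := fun e => hk (by rw [e]; exact i.2)
          simp [ext, hk, Pi.mulSingle_eq_of_ne hik],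
      Torus.torus_simple hD]
    rfl
  have := congrArg (fun f => f c) he
  simp only [MonoidHom.comp_apply, hc, map_one] at this
  have hec : ext c = 1 := hT (this.symm.trans (map_one _).symm)
  funext i
  have := congrFun hec (Fin.castLE hle i)
  simpa [ext, i.2] using this

end CfsgLib.Chev.Univ
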