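import Cfsg.Agent.Lib.Chev.Abstract.Kernel
import Cfsg.Agent.Lib.Chev.Abstract.Present
import Cfsg.Prelude.Def_SteinbergCover

/-! Central extensions split over Steinberg's relations (simply-laced, by decompositions of roots). -/
set_option autoImplicit false
set_option maxRecDepth 100000
open Cfsg.Lie
open scoped Matrix MatrixGroups commutatorElement

namespace CfsgLib.Chev.Univ

open CfsgLib.Chev CfsgLib.Chev.Checks CfsgLib.Chev.Basic CfsgLib.Chev.Abstract

/-- distinct, not opposite, sum not a root (or equal) -/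
def noSum (D : ChevalleyDatum) (a b : ℕ) : Bool :=
  decide (a < D.nroots) && decide (b < D.nroots) && b != D.neg a && (D.chainEntry a b).isEmpty

def rowsOK (D : ChevalleyDatum) : Bool :=
  (List.range D.nroots).all fun r => (D.chain.getD r #[]).toList.all fun e =>
    decide (e.1 < D.nroots) && e.1 != r && e.1 != D.neg r &&
      match e.2.toList with
      | [(c, M)] => decide (c < D.nroots) && (M == 1 || M == -1)
      | _ => false

/-- moves `(a, b, s)` between the pairs `(a+b, s)` and `(a, b+s)`; words to the first fundamental root -/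
structure Cert where
  moves : List (ℕ × ℕ × ℕ)
  words : List (List ℕ)

def mvRoot (D : ChevalleyDatum) (a b : ℕ) : ℕ := (D.chainRoot a b 1).getD 0

def moveOK (D : ChevalleyDatum) (c0 : ℕ) (m : ℕ × ℕ × ℕ) : Bool :=
  let p := mvRoot D m.1 m.2.1
  let q := mvRoot D m.2.1 m.2.2
  decide (m.1 < D.nroots) && decide (m.2.1 < D.nroots) && decide (m.2.2 < D.nroots) &&
    D.chainRoot m.1 m.2.1 1 == some p && D.chainRoot m.2.1 m.2.2 1 == some q &&
    D.chainRoot p m.2.2 1 == some c0 && D.chainRoot m.1 q 1 == some c0 &&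
    noSum D m.1 m.2.2 && noSum D p q && noSum D c0 q && noSum D p c0

def ends (D : ChevalleyDatum) (m : ℕ × ℕ × ℕ) : (ℕ × ℕ) × (ℕ × ℕ) :=
  ((mvRoot D m.1 m.2.1, m.2.2), (m.1, mvRoot D m.2.1 m.2.2))

def grow (D : ChevalleyDatum) (seen : List (ℕ × ℕ)) (m : ℕ × ℕ × ℕ) : List (ℕ × ℕ) :=
  let e := ends D m
  if seen.contains e.1 || seen.contains e.2 then e.1 :: e.1.swap :: e.2 :: e.2.swap :: seen else seen

def reach (D : ChevalleyDatum) (C : Cert) : List (ℕ × ℕ) :=
  match C.moves with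
  | [] => []
  | m :: ms => List.foldl (grow D) [(ends D m).1] (m :: ms)

def certOK (D : ChevalleyDatum) (C : Cert) : Bool :=
  let c0 := D.simple 0
  let P := reach D C
  decide (0 < D.rank) && rowsOK D && !C.moves.isEmpty && C.moves.all (moveOK D c0) &&
    ((List.range D.nroots).all fun r => (D.chain.getD r #[]).toList.all fun e =>
      (e.2.toList.map Prod.fst)[0]? != some c0 || P.contains (r, e.1)) &&
    ((List.range D.nroots).all fun s => !noSum D c0 s ||
      P.any fun q => noSum D q.1 s && noSum D q.2 s && D.chainRoot q.1 q.2 1 == some c0) &&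
    (List.range D.rank).all fun a => (C.words.getD a []).all (fun i => decide (i < D.rank)) &&
      N.act D (C.words.getD a []) (D.simple a) == c0

variable {D : ChevalleyDatum} {F : Type*} [Field F]

theorem chain_cases (h : rowsOK D = true) {r : ℕ} (hr : r < D.nroots) (s : ℕ) :
    D.chainEntry r s = [] ∨ ∃ c M, D.chainEntry r s = [(c, M)] ∧ s < D.nroots ∧ s ≠ r ∧ s ≠ D.neg r ∧ c < D.nroots ∧
      (M = 1 ∨ M = -1) := by
  simp only [rowsOK, List.all_eq_true, List.mem_range, Bool.and_eq_true, decide_eq_true_eq, bne_iff_ne] at h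
  unfold ChevalleyDatum.chainEntry
  cases he : (D.chain.getD r #[]).toList.find? (fun e => e.1 = s) with
  | none => exact Or.inl rfl
  | some e =>
    right
    have hmem := List.mem_of_find?_eq_some he
    have hs : e.1 = s := by simpa using List.find?_some he
    obtain ⟨⟨⟨h1, h2⟩, h3⟩, h4⟩ := h r hr e hmem
    rcases hl : e.2.toList with _ | ⟨⟨c, M⟩, _ | ⟨x, l⟩⟩
    · rw [hl] at h4; simp at h4
    · rw [hl] at h4
      simp only [Bool.and_eq_true, decide_eq_true_eq, Bool.or_eq_true, beq_iff_eq] at h4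
      exact ⟨c, M, hl, hs ▸ h1, hs ▸ h2, hs ▸ h3, h4.1, h4.2⟩
    · rw [hl] at h4; simp at h4

theorem chainRoot_ge (h : rowsOK D = true) {r : ℕ} (hr : r < D.nroots) (s : ℕ) {k : ℕ} (hk : 2 ≤ k) :
    D.chainRoot r s k = none ∧ D.chainM r s k = 0 := by
  unfold ChevalleyDatum.chainRoot ChevalleyDatum.chainM
  rcases chain_cases h hr s with e | ⟨c, M, e, -⟩ <;> rw [e] <;>
    simp [List.getElem?_eq_none, show 1 ≤ k - 1 by omega]

theorem commTerms_eq (h : rowsOK D = true) {r s : ℕ} (hr : r < D.nroots) (hs : s < D.nroots) :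
    D.commTerms r s = (D.chainEntry r s).map fun e => (e.1, e.2, 1, 1) := by
  obtain ⟨a2, -⟩ := chainRoot_ge h hr s le_rfl
  obtain ⟨b2, -⟩ := chainRoot_ge h hs r le_rfl
  obtain ⟨a3, -⟩ := chainRoot_ge h hr s (show 2 ≤ 3 by norm_num)
  obtain ⟨b3, -⟩ := chainRoot_ge h hs r (show 2 ≤ 3 by norm_num)
  unfold ChevalleyDatum.commTerms
  simp only [a2, b2, a3, b3, Option.bind_none, List.filterMap_cons, Option.map_none, List.filterMap_nil]
  unfold ChevalleyDatum.chainRoot ChevalleyDatum.chainM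
  rcases chain_cases h hr s with e | ⟨c, M, e, -⟩ <;> simp [e]

theorem of_chainRoot (h : rowsOK D = true) {r s c : ℕ} (hr : r < D.nroots) (hc : D.chainRoot r s 1 = some c) :
    ∃ M, D.chainEntry r s = [(c, M)] ∧ s < D.nroots ∧ s ≠ r ∧ s ≠ D.neg r ∧ c < D.nroots ∧ (M = 1 ∨ M = -1) := by
  unfold ChevalleyDatum.chainRoot at hc
  rcases chain_cases h hr s with e | ⟨c', M, e, rest⟩
  · simp [e] at hc
  · simp [e] at hc
    subst hc
    exact ⟨M, e, rest⟩

section base

variable {hD : D ∈ dataList} {B : Type*} [Group B] (S : Sys hD F B)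

theorem X_inj {r : ℕ} (hr : r < D.nroots) {t u : F} (h : S.X r t = S.X r u) : t = u := by
  have h1 : S.θ (S.X r (t + -u)) = 1 := by rw [← S.add r hr, h, S.add r hr, add_neg_cancel, S.X_zero hr, map_one]
  rw [S.θX r hr] at h1
  have h2 : D.x F r (t + -u) = 1 := by rw [← xGL_val hD, h1]; rfl
  linear_combination (XOne.x_eq_one_iff hD hr (t + -u)).1 h2

theorem X_root_inj {r s : ℕ} (hr : r < D.nroots) (hs : s < D.nroots) {t u : F} (ht : t ≠ 0)
    (h : S.X r t = S.X s u) : r = s := by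
  have := congrArg S.θ h
  rw [S.θX r hr, S.θX s hs] at this
  exact N.xGL_inj hD hr hs ht this

theorem X_bracket (hrows : rowsOK D = true) {a b c : ℕ} {M : ℤ} (ha : a < D.nroots)
    (he : D.chainEntry a b = [(c, M)]) (t u : F) : ⁅S.X a t, S.X b u⁆ = S.X c ((M : F) * t * u) := by
  obtain ⟨M', he', hb, h1, h2, hc, -⟩ := of_chainRoot hrows ha (c := c) (s := b) (by simp [ChevalleyDatum.chainRoot, he])
  have h := S.comm a b ha hb h1 h2 (-t) (-u)
  rw [ChevalleyDatum.commWord, commTerms_eq hrows ha hb, he] at h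
  simp only [List.map_cons, List.map_nil, List.prod_cons, List.prod_nil, mul_one, neg_neg, pow_one] at h
  rw [← S.X_inv ha, ← S.X_inv hb] at h
  have e : S.X c ((M : F) * t * -u) = (S.X c ((M : F) * t * u))⁻¹ := by rw [S.X_inv hc, mul_neg]
  rw [e] at h
  rw [commutatorElement_def]
  set Z := S.X c ((M : F) * t * u)
  calc S.X a t * S.X b u * (S.X a t)⁻¹ * (S.X b u)⁻¹
      = ((S.X b u)⁻¹ * (S.X a t)⁻¹)⁻¹ * ((S.X a t)⁻¹ * (S.X b u)⁻¹) := by group
    _ = _ := by rw [h]; group

theorem X_commute (hrows : rowsOK D = true) {a b : ℕ} (h : noSum D a b = true) (t u : F) :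
    Commute (S.X a t) (S.X b u) := by
  simp only [noSum, Bool.and_eq_true, decide_eq_true_eq, bne_iff_ne, List.isEmpty_iff] at h
  obtain ⟨⟨⟨ha, hb⟩, h2⟩, he⟩ := h
  by_cases h1 : b = a
  · subst h1
    show _ * _ = _ * _
    rw [S.add b hb, S.add b hb, add_comm]
  · have h := S.comm a b ha hb h1 h2 t u
    rw [ChevalleyDatum.commWord, commTerms_eq hrows ha hb, he] at h
    simp at h
    exact h.symm

end base

section ext

variable {hD : D ∈ dataList} {B E : Type*} [Group B] [Group E] (S : Sys hD F B) (π : E →* B)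
  (hπ : Function.Surjective π) (hc : π.ker ≤ Subgroup.center E)

include hc in
theorem eq_mul_central {p p' : E} (h : π p = π p') : ∃ z ∈ Subgroup.center E, p = p' * z :=
  ⟨p'⁻¹ * p, hc (by rw [MonoidHom.mem_ker, map_mul, map_inv, h, inv_mul_cancel]), by group⟩

include hc in
theorem bracket_congr {p p' q q' : E} (hp : π p = π p') (hq : π q = π q') : ⁅p, q⁆ = ⁅p', q'⁆ := by
  obtain ⟨z, hz, rfl⟩ := eq_mul_central π hc hp
  obtain ⟨w, hw, rfl⟩ := eq_mul_central π hc hq
  have cz : ∀ g, g * z = z * g := Subgroup.mem_center_iff.1 hz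
  have cw : ∀ g, g * w = w * g := Subgroup.mem_center_iff.1 hw
  calc ⁅p' * z, q' * w⁆ = p' * (z * (q' * w) * z⁻¹) * p'⁻¹ * (q' * w)⁻¹ := by rw [commutatorElement_def]; group
    _ = p' * (q' * w) * p'⁻¹ * w⁻¹ * q'⁻¹ := by rw [← cz, mul_inv_cancel_right]; group
    _ = p' * q' * (w * p'⁻¹ * w⁻¹) * q'⁻¹ := by group
    _ = _ := by rw [← cw p'⁻¹, mul_inv_cancel_right, commutatorElement_def]

/-- a chosen lift of a root element -/
noncomputable def L (r : ℕ) (t : F) : E := Function.surjInv hπ (S.X r t)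

theorem π_L (r : ℕ) (t : F) : π (L S π hπ r t) = S.X r t := Function.surjInv_eq hπ _

include hc in
theorem commute_bracket {s a b : E} (ha : Commute (π s) (π a)) (hb : Commute (π s) (π b)) : Commute s ⁅a, b⁆ := by
  have h1 : ⁅s * a * s⁻¹, s * b * s⁻¹⁆ = ⁅a, b⁆ := bracket_congr π hc
    (by rw [map_mul, map_mul, map_inv, ha.eq, mul_inv_cancel_right])
    (by rw [map_mul, map_mul, map_inv, hb.eq, mul_inv_cancel_right])
  show s * ⁅a, b⁆ = ⁅a, b⁆ * s
  conv_rhs => rw [← h1]
  rw [commutatorElement_def, commutatorElement_def]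
  group

include hc in
theorem commute_congr {p p' q q' : E} (h : Commute p' q') (hp : π p = π p') (hq : π q = π q') : Commute p q := by
  rw [← commutatorElement_eq_one_iff_commute] at h ⊢
  rw [bracket_congr π hc hp hq, h]

variable (C : Cert) (hC : certOK D C = true)

include hC in
theorem cert_spec : 0 < D.rank ∧ rowsOK D = true ∧ C.moves ≠ [] ∧
    (∀ m ∈ C.moves, moveOK D (D.simple 0) m = true) ∧
    (∀ r < D.nroots, ∀ s, D.chainRoot r s 1 = some (D.simple 0) → (r, s) ∈ reach D C) ∧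
    (∀ s, noSum D (D.simple 0) s = true → ∃ q : ℕ × ℕ, noSum D q.1 s = true ∧ noSum D q.2 s = true ∧
      D.chainRoot q.1 q.2 1 = some (D.simple 0)) ∧
    ∀ a < D.rank, ∃ l : List ℕ, (∀ i ∈ l, i < D.rank) ∧ N.act D l (D.simple a) = D.simple 0 := by
  simp only [certOK, Bool.and_eq_true, decide_eq_true_eq, List.all_eq_true, List.mem_range, Bool.or_eq_true,
    bne_iff_ne, List.any_eq_true, beq_iff_eq, List.isEmpty_iff, Bool.not_eq_true', List.contains_iff_mem,
    List.isEmpty_eq_false_iff] at hC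
  obtain ⟨⟨⟨⟨⟨⟨h0, h1⟩, h2⟩, h3⟩, h4⟩, h5⟩, h6⟩ := hC
  refine ⟨h0, h1, h2, h3, fun r hr s hs => ?_, fun s hs => ?_, fun a ha => ⟨_, (h6 a ha).1, (h6 a ha).2⟩⟩
  · unfold ChevalleyDatum.chainRoot ChevalleyDatum.chainEntry at hs
    cases he : (D.chain.getD r #[]).toList.find? (fun e => e.1 = s) with
    | none => rw [he] at hs; simp at hs
    | some e =>
      simp only [he] at hs
      have hmem := List.mem_of_find?_eq_some he
      have hse : e.1 = s := by simpa using List.find?_some he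
      refine hse ▸ (h4 r hr e hmem).resolve_left (fun h => h ?_)
      simpa [List.getElem?_map] using hs
  · have hlt : s < D.nroots := by
      simp only [noSum, Bool.and_eq_true, decide_eq_true_eq] at hs
      exact hs.1.1.2
    rcases h5 s hlt with h | ⟨q, -, ⟨h7, h8⟩, h9⟩
    · rw [hs] at h; exact absurd h (by simp)
    · exact ⟨q, h7, h8, h9⟩

include hC in
theorem exists_to_zero (hD' : D ∈ dataList) {r : ℕ} (hr : r < D.nroots) :
    ∃ l : List ℕ, (∀ i ∈ l, i < D.rank) ∧ N.act D l r = D.simple 0 := by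
  obtain ⟨-, -, -, -, -, -, hw⟩ := cert_spec C hC
  refine Rel.root_induction hD' (P := fun r => ∃ l : List ℕ, (∀ i ∈ l, i < D.rank) ∧ N.act D l r = D.simple 0)
    (fun a ha => hw a ha) (fun i r hi _ => ?_) hr
  rintro ⟨l, hl, h⟩
  refine ⟨l ++ [i], fun j hj => (List.mem_append.1 hj).elim (hl j) fun h' => (List.mem_singleton.1 h') ▸ hi, ?_⟩
  rw [N.act_append]
  exact h

include hc hC in
theorem commute_core {s : ℕ} (hs : noSum D (D.simple 0) s = true) (t u : F) :
    Commute (L S π hπ (D.simple 0) t) (L S π hπ s u) := by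
  obtain ⟨-, hrows, -, -, -, hns, -⟩ := cert_spec C hC
  obtain ⟨q, h1, h2, h3⟩ := hns s hs
  have hq1 : q.1 < D.nroots := by simp only [noSum, Bool.and_eq_true, decide_eq_true_eq] at h1; exact h1.1.1.1
  obtain ⟨M, he, hq2, -, -, -, hM⟩ := of_chainRoot hrows hq1 h3
  have hMM : (M : F) * (M : F) = 1 := by rcases hM with rfl | rfl <;> simp
  have key : Commute (L S π hπ s u) ⁅L S π hπ q.1 ((M : F) * t), L S π hπ q.2 1⁆ :=
    commute_bracket π hc (by rw [π_L, π_L]; exact (X_commute S hrows h1 _ _).symm)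
      (by rw [π_L, π_L]; exact (X_commute S hrows h2 _ _).symm)
  refine commute_congr π hc key.symm ?_ rfl
  rw [map_commutatorElement, π_L, π_L, π_L, X_bracket S hrows hq1 he, mul_one, ← mul_assoc, hMM, one_mul]

include hc hC in
/-- lifts of commuting root elements commute -/
theorem lift_commute {r s : ℕ} (h : noSum D r s = true) (t u : F) : Commute (L S π hπ r t) (L S π hπ s u) := by
  obtain ⟨-, hrows, -, -, -, -, -⟩ := cert_spec C hC
  have h' := h
  simp only [noSum, Bool.and_eq_true, decide_eq_true_eq, bne_iff_ne] at h'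
  obtain ⟨⟨⟨hr, hs⟩, hne⟩, -⟩ := h'
  obtain ⟨l, hl, hlr⟩ := exists_to_zero C hC hD hr
  obtain ⟨η, hη, h1⟩ := S.nW_conj hl hr
  obtain ⟨η', hη', h2⟩ := S.nW_conj hl hs
  rw [hlr] at h1
  have hs' := N.act_lt hD hl hs
  have hcomm : ∀ x y : F, Commute (S.X (D.simple 0) (η * x)) (S.X (N.act D l s) (η' * y)) := fun x y => by
    rw [← h1, ← h2]
    exact (Commute.map (X_commute S hrows h x y) (MulAut.conj (S.nW l)).toMonoidHom)
  have hns : noSum D (D.simple 0) (N.act D l s) = true := by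
    have hp : D.simple 0 < D.nroots := hlr ▸ N.act_lt hD hl hr
    simp only [noSum, Bool.and_eq_true, decide_eq_true_eq, bne_iff_ne, List.isEmpty_iff]
    refine ⟨⟨⟨hp, hs'⟩, fun e => hne ?_⟩, ?_⟩
    · rw [← hlr, ← N.act_neg hD hl hr] at e
      exact BN.act_inj hD hl hs (Checks.neg_lt hD hr) e
    · rcases chain_cases hrows hp (N.act D l s) with e | ⟨c, M, e, -, -, -, hcl, hM⟩
      · exact e
      · exfalso
        have := hcomm η η'
        rw [← commutatorElement_eq_one_iff_commute, X_bracket S hrows hp e] at this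
        have hηη : η * η = 1 ∧ η' * η' = 1 := by
          constructor <;> [rcases hη with rfl | rfl; rcases hη' with rfl | rfl] <;> simp
        rw [hηη.1, hηη.2, mul_one, mul_one, ← S.X_zero hcl] at this
        have := X_inj S hcl this
        rcases hM with rfl | rfl <;> simp at this
  set g := Function.surjInv hπ (S.nW l)
  have hg : π g = S.nW l := Function.surjInv_eq hπ _
  have key := Commute.map (commute_core S π hπ hc C hC hns (η * t) (η' * u)) (MulAut.conj g⁻¹).toMonoidHom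
  refine commute_congr π hc key ?_ ?_
  · simp only [MulEquiv.coe_toMonoidHom, MulAut.conj_apply, inv_inv]
    simp only [map_mul, map_inv, π_L, hg, ← h1]
    group
  · simp only [MulEquiv.coe_toMonoidHom, MulAut.conj_apply, inv_inv]
    simp only [map_mul, map_inv, π_L, hg, ← h2]
    group

/-- the first pair -/
def basePair (D : ChevalleyDatum) (C : Cert) : ℕ × ℕ := (ends D (C.moves.headD (0, 0, 0))).1

/-- its sign -/
def baseSign (D : ChevalleyDatum) (C : Cert) : ℤ := D.chainM (basePair D C).1 (basePair D C).2 1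

/-- the canonical lift of `x_{p₁}` -/
noncomputable def psi (t : F) : E :=
  ⁅L S π hπ (basePair D C).1 ((baseSign D C : F) * t), L S π hπ (basePair D C).2 1⁆

include hc hC in
theorem move_eq {m : ℕ × ℕ × ℕ} (hm : m ∈ C.moves) : ∃ M₁ M₂ : F, M₁ * M₁ = 1 ∧ M₂ * M₂ = 1 ∧ ∀ t v u : F,
    ⁅L S π hπ (ends D m).1.1 (M₁ * t * v), L S π hπ (ends D m).1.2 u⁆ =
      ⁅L S π hπ (ends D m).2.1 t, L S π hπ (ends D m).2.2 (M₂ * v * u)⁆ := by
  obtain ⟨-, hrows, -, hmv, -, -, -⟩ := cert_spec C hC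
  have h := hmv m hm
  simp only [moveOK, Bool.and_eq_true, decide_eq_true_eq, beq_iff_eq] at h
  obtain ⟨⟨⟨⟨⟨⟨⟨⟨⟨⟨ha, hb⟩, hs⟩, e1⟩, e2⟩, e3⟩, e4⟩, n1⟩, n2⟩, n3⟩, n4⟩ := h
  obtain ⟨M₁, c1, -, -, -, hp, k1⟩ := of_chainRoot hrows ha e1
  obtain ⟨M₂, c2, -, -, -, hq, k2⟩ := of_chainRoot hrows hb e2
  obtain ⟨M₄, c4, -, -, -, -, -⟩ := of_chainRoot hrows ha e4
  refine ⟨M₁, M₂, by rcases k1 with rfl | rfl <;> simp, by rcases k2 with rfl | rfl <;> simp, fun t v u => ?_⟩
  simp only [ends]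
  set A := L S π hπ m.1 t
  set Bb := L S π hπ m.2.1 v
  set Ss := L S π hπ m.2.2 u
  set Cc := L S π hπ (mvRoot D m.1 m.2.1) ((M₁ : F) * t * v)
  set T := L S π hπ (mvRoot D m.2.1 m.2.2) ((M₂ : F) * v * u)
  have hCc : π ⁅A, Bb⁆ = π Cc := by rw [map_commutatorElement, π_L, π_L, π_L, X_bracket S hrows ha c1]
  have hT : π ⁅Bb, Ss⁆ = π T := by rw [map_commutatorElement, π_L, π_L, π_L, X_bracket S hrows hb c2]
  rw [← bracket_congr π hc hCc rfl]
  set C' := ⁅A, Bb⁆
  set T' := ⁅Bb, Ss⁆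
  have step : Ss * C' * Ss⁻¹ = ⁅A, T'⁻¹ * Bb⁆ := by
    have e : Ss * C' * Ss⁻¹ = ⁅Ss * A * Ss⁻¹, Ss * Bb * Ss⁻¹⁆ := by
      simp only [C', commutatorElement_def]; group
    have e' : Ss * Bb * Ss⁻¹ = T'⁻¹ * Bb := by simp only [T', commutatorElement_def]; group
    rw [e, e']
    refine bracket_congr π hc ?_ rfl
    rw [map_mul, map_mul, map_inv, π_L, π_L, (X_commute S hrows n1 _ _).symm.eq, mul_inv_cancel_right]
  have cTC : Commute T' C' :=
    (commute_congr π hc (lift_commute S π hπ hc C hC n2 _ _) hCc hT).symm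
  have cTW : Commute T' ⁅A, T'⁆ := by
    refine (commute_congr π hc (lift_commute S π hπ hc C hC n3 ((M₄ : F) * t * ((M₂ : F) * v * u)) _) ?_ hT).symm
    rw [map_commutatorElement, hT, π_L, π_L, π_L, X_bracket S hrows ha c4]
  have e3 : ⁅A, T'⁻¹ * Bb⁆ = ⁅A, T'⁆⁻¹ * C' := by
    have h1 : ⁅A, T'⁻¹ * Bb⁆ = (T'⁻¹ * ⁅A, T'⁆⁻¹ * T') * (T'⁻¹ * C' * T') := by
      simp only [C', commutatorElement_def]; group
    rw [h1, show T'⁻¹ * ⁅A, T'⁆⁻¹ * T' = (T'⁻¹ * ⁅A, T'⁆ * T')⁻¹ by group,
      show T'⁻¹ * ⁅A, T'⁆ * T' = ⁅A, T'⁆ by rw [mul_assoc, ← cTW.eq, ← mul_assoc, inv_mul_cancel, one_mul],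
      show T'⁻¹ * C' * T' = C' by rw [mul_assoc, ← cTC.eq, ← mul_assoc, inv_mul_cancel, one_mul]]
  rw [← bracket_congr π hc rfl hT (p := A)]
  calc ⁅C', Ss⁆ = C' * (Ss * C' * Ss⁻¹)⁻¹ := by rw [commutatorElement_def]; group
    _ = ⁅A, T'⁆ := by rw [step, e3]; group

include hC in
theorem base_spec : basePair D C = (ends D (C.moves.headD (0, 0, 0))).1 ∧ C.moves.headD (0, 0, 0) ∈ C.moves ∧
    (basePair D C).1 < D.nroots ∧ noSum D (basePair D C).1 (D.simple 0) = true ∧
    D.chainEntry (basePair D C).1 (basePair D C).2 = [(D.simple 0, baseSign D C)] ∧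
    (baseSign D C = 1 ∨ baseSign D C = -1) := by
  obtain ⟨-, hrows, hne, hmv, -, -, -⟩ := cert_spec C hC
  have hm : C.moves.headD (0, 0, 0) ∈ C.moves := by
    rcases hC' : C.moves with _ | ⟨m, ms⟩
    · exact absurd hC' hne
    · simp
  have h := hmv _ hm
  simp only [moveOK, Bool.and_eq_true, decide_eq_true_eq, beq_iff_eq] at h
  obtain ⟨⟨⟨⟨⟨⟨⟨⟨⟨⟨ha, hb⟩, hs⟩, e1⟩, e2⟩, e3⟩, e4⟩, n1⟩, n2⟩, n3⟩, n4⟩ := h
  obtain ⟨_, -, -, -, -, hp, -⟩ := of_chainRoot hrows ha e1
  obtain ⟨M, he, -, -, -, -, hM⟩ := of_chainRoot hrows hp e3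
  have hsign : baseSign D C = M := by
    simp only [baseSign, basePair, ends, ChevalleyDatum.chainM]
    rw [he]; rfl
  exact ⟨rfl, hm, hp, n4, hsign ▸ he, hsign ▸ hM⟩

include hC in
theorem π_psi (t : F) : π (psi S π hπ C t) = S.X (D.simple 0) t := by
  obtain ⟨-, hrows, -⟩ := cert_spec C hC
  obtain ⟨-, -, hp, -, he, hM⟩ := base_spec C hC
  rw [psi, map_commutatorElement, π_L, π_L, X_bracket S hrows hp he, mul_one, ← mul_assoc,
    show (baseSign D C : F) * (baseSign D C : F) = 1 by rcases hM with e | e <;> simp [e], one_mul]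

include hc hC in
theorem psi_add (t u : F) : psi S π hπ C (t + u) = psi S π hπ C u * psi S π hπ C t := by
  obtain ⟨-, hrows, -⟩ := cert_spec C hC
  obtain ⟨-, -, hp, hn, he, hM⟩ := base_spec C hC
  unfold psi
  set p := (basePair D C).1
  set M := (baseSign D C : F)
  set A := L S π hπ p (M * t)
  set A' := L S π hπ p (M * u)
  set Bb := L S π hπ (basePair D C).2 1
  rw [bracket_congr π hc (p' := A * A') (q' := Bb) (by rw [π_L, map_mul, π_L, π_L, S.add p hp, mul_add]) rfl]
  have hcm : Commute A ⁅A', Bb⁆ := by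
    refine commute_congr π hc (lift_commute S π hπ hc C hC hn (M * t) ((baseSign D C : F) * (M * u) * 1)) rfl ?_
    rw [map_commutatorElement, π_L, π_L, π_L, X_bracket S hrows hp he]
  calc ⁅A * A', Bb⁆ = A * ⁅A', Bb⁆ * A⁻¹ * ⁅A, Bb⁆ := by simp only [commutatorElement_def]; group
    _ = _ := by rw [hcm.eq, mul_inv_cancel_right]

include hc hC in
theorem psi_neg (t : F) : psi S π hπ C (-t) = (psi S π hπ C t)⁻¹ := by
  have h0 : psi S π hπ C 0 = 1 := by
    have := psi_add S π hπ hc C hC 0 0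
    rw [add_zero] at this
    exact mul_eq_left.1 this.symm
  have := psi_add S π hπ hc C hC (-t) t
  rw [neg_add_cancel, h0] at this
  exact eq_inv_of_mul_eq_one_right this.symm

/-- the commutator of lifts lies over the canonical lift -/
def Good (q : ℕ × ℕ) : Prop := ∀ t u : F, ∃ v : F, ⁅L S π hπ q.1 t, L S π hπ q.2 u⁆ = psi S π hπ C v

include hc hC in
theorem good_swap {q : ℕ × ℕ} (h : Good S π hπ C q) : Good S π hπ C q.swap := fun t u => by
  obtain ⟨v, hv⟩ := h u t
  exact ⟨-v, by rw [psi_neg S π hπ hc C hC, ← hv, commutatorElement_inv]; rfl⟩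

include hc hC in
theorem good_move {m : ℕ × ℕ × ℕ} (hm : m ∈ C.moves) :
    (Good S π hπ C (ends D m).1 ↔ Good S π hπ C (ends D m).2) := by
  obtain ⟨M₁, M₂, h1, h2, h⟩ := move_eq S π hπ hc C hC hm
  constructor <;> intro hg t u
  · obtain ⟨v, hv⟩ := hg (M₁ * t * 1) (M₂ * u)
    exact ⟨v, by rw [← hv, h, mul_one, ← mul_assoc, h2, one_mul]⟩
  · obtain ⟨v, hv⟩ := hg 1 (M₂ * (M₁ * t) * u)
    exact ⟨v, by rw [← hv, ← h, mul_one, ← mul_assoc, h1, one_mul]⟩

include hc hC in
theorem good_base : Good S π hπ C (basePair D C) := by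
  obtain ⟨hb, hm, -, -, -, hM⟩ := base_spec C hC
  obtain ⟨M₁, M₂, h1, h2, h⟩ := move_eq S π hπ hc C hC hm
  have key : ∀ x u : F, ⁅L S π hπ (basePair D C).1 x, L S π hπ (basePair D C).2 u⁆ =
      ⁅L S π hπ (ends D (C.moves.headD (0, 0, 0))).2.1 1,
        L S π hπ (ends D (C.moves.headD (0, 0, 0))).2.2 (M₂ * (M₁ * x) * u)⁆ := fun x u => by
    rw [hb, ← h, mul_one, ← mul_assoc, h1, one_mul]
  intro t u
  refine ⟨(baseSign D C : F) * (t * u), ?_⟩
  rw [psi, key, key, ← mul_assoc (baseSign D C : F) (baseSign D C : F),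
    show (baseSign D C : F) * (baseSign D C : F) = 1 by rcases hM with e | e <;> simp [e]]
  congr 2
  ring

include hc hC in
theorem good_all {r s : ℕ} (hr : r < D.nroots) (h : D.chainRoot r s 1 = some (D.simple 0)) :
    Good S π hπ C (r, s) := by
  obtain ⟨-, -, hne, -, hP, -, -⟩ := cert_spec C hC
  have key : ∀ (ms : List (ℕ × ℕ × ℕ)) (seen : List (ℕ × ℕ)), (∀ m ∈ ms, m ∈ C.moves) →
      (∀ q ∈ seen, Good S π hπ C q) → ∀ q ∈ List.foldl (grow D) seen ms, Good S π hπ C q := by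
    intro ms
    induction ms with
    | nil => exact fun seen _ h => h
    | cons m ms ih =>
      intro seen hms hseen
      refine ih _ (fun x hx => hms x (List.mem_cons_of_mem _ hx)) ?_
      show ∀ q ∈ (if seen.contains (ends D m).1 || seen.contains (ends D m).2 then
        (ends D m).1 :: (ends D m).1.swap :: (ends D m).2 :: (ends D m).2.swap :: seen else seen), Good S π hπ C q
      split_ifs with hif
      · have hm := good_move S π hπ hc C hC (hms m List.mem_cons_self)
        simp only [Bool.or_eq_true, List.contains_iff_mem] at hif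
        have g1 : Good S π hπ C (ends D m).1 := hif.elim (hseen _) fun h => hm.2 (hseen _ h)
        intro q hq
        simp only [List.mem_cons] at hq
        rcases hq with rfl | rfl | rfl | rfl | hq
        exacts [g1, good_swap S π hπ hc C hC g1, hm.1 g1, good_swap S π hπ hc C hC (hm.1 g1), hseen q hq]
      · exact hseen
  have hrs := hP r hr s h
  unfold reach at hrs
  rcases hm : C.moves with _ | ⟨m, ms⟩
  · exact absurd hm hne
  · rw [hm] at hrs
    refine key (m :: ms) _ (fun x hx => hm ▸ hx) (fun q hq => ?_) _ hrs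
    rw [List.mem_singleton] at hq
    subst hq
    have := good_base S π hπ hc C hC
    unfold basePair at this
    rwa [hm] at this

include hπ hc hC in
theorem exists_splitting : ∃ τ : D.SteinbergCover F →* E, ∀ r, r < D.nroots → ∀ t : F,
    π (τ (D.scGen F r t)) = S.X r t := by
  classical
  obtain ⟨-, hrows, -⟩ := cert_spec C hC
  have hex : ∀ r : Fin D.nroots, ∃ (g : E) (η : F), η * η = 1 ∧ ∃ l : List ℕ, (∀ i ∈ l, i < D.rank) ∧
      N.act D l r = D.simple 0 ∧ π g = S.nW l ∧ ∀ t : F, π g * S.X r t * (π g)⁻¹ = S.X (D.simple 0) (η * t) := by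
    intro r
    obtain ⟨l, hl, hlr⟩ := exists_to_zero C hC hD r.2
    obtain ⟨η, hη, h1⟩ := S.nW_conj hl r.2
    obtain ⟨g, hg⟩ := hπ (S.nW l)
    exact ⟨g, η, by rcases hη with rfl | rfl <;> simp, l, hl, hlr, hg, fun t => by rw [hg, h1, hlr]⟩
  choose g η hη l hl hlr hgl hg using hex
  let Y : Fin D.nroots → F → E := fun r t => (g r)⁻¹ * psi S π hπ C (η r * t) * g r
  have hY : ∀ (r : Fin D.nroots) (t : F), π (Y r t) = S.X r t := fun r t => by
    simp only [Y, map_mul, map_inv, π_psi S π hπ C hC, ← hg]; group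
  have hYadd : ∀ (r : Fin D.nroots) (t u : F), Y r t * Y r u = Y r (t + u) := fun r t u => by
    simp only [Y, mul_add]
    rw [add_comm, psi_add S π hπ hc C hC]; group
  have hYneg : ∀ (r : Fin D.nroots) (t : F), (Y r t)⁻¹ = Y r (-t) := fun r t => by
    simp only [Y, mul_neg, psi_neg S π hπ hc C hC]; group
  have main : ∀ (r s : Fin D.nroots) (c : Fin D.nroots) (M : ℤ), D.chainEntry r s = [(c.val, M)] → ∀ t u : F,
      ⁅L S π hπ r t, L S π hπ s u⁆ = Y c ((M : F) * t * u) := by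
    intro r s c M he t u
    obtain ⟨M', he', -, hne1, hne2, -, hM⟩ := of_chainRoot hrows r.2 (c := c.val) (s := s.val)
      (by simp [ChevalleyDatum.chainRoot, he])
    rw [he] at he'
    simp only [List.cons.injEq, Prod.mk.injEq, true_and, and_true] at he'
    subst he'
    obtain ⟨η₁, hη₁, k1⟩ := S.nW_conj (hl c) r.2
    obtain ⟨η₂, hη₂, k2⟩ := S.nW_conj (hl c) s.2
    set r' := N.act D (l c) r
    set s' := N.act D (l c) s
    have hr' : r' < D.nroots := N.act_lt hD (hl c) r.2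
    have hs' : s' < D.nroots := N.act_lt hD (hl c) s.2
    have himg : ∀ x y : F, ⁅S.X r' (η₁ * x), S.X s' (η₂ * y)⁆ = S.X (D.simple 0) (η c * ((M : F) * x * y)) :=
      fun x y => by
        rw [← k1, ← k2, ← hg c, hgl c, ← X_bracket S hrows r.2 he, conjugate_commutatorElement]
    have hroot : D.chainRoot r' s' 1 = some (D.simple 0) := by
      have h11 := himg 1 1
      have hnz : η c * ((M : F) * 1 * 1) ≠ 0 := by
        have := hη c
        rcases hM with rfl | rfl <;> simp <;> intro e <;> simp [e] at this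
      have h0 : D.simple 0 < D.nroots := hlr c ▸ N.act_lt hD (hl c) c.2
      rcases chain_cases hrows hr' s' with e | ⟨c', M', e, -, -, -, hc', -⟩
      · exfalso
        have hns : noSum D r' s' = true := by
          simp only [noSum, Bool.and_eq_true, decide_eq_true_eq, bne_iff_ne, List.isEmpty_iff]
          refine ⟨⟨⟨hr', hs'⟩, fun e2 => hne2 ?_⟩, e⟩
          rw [← N.act_neg hD (hl c) r.2] at e2
          exact BN.act_inj hD (hl c) s.2 (Checks.neg_lt hD r.2) e2
        rw [commutatorElement_eq_one_iff_commute.2 (X_commute S hrows hns _ _), ← S.X_zero h0] at h11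
        exact hnz (X_inj S h0 h11).symm
      · rw [X_bracket S hrows hr' e] at h11
        have : D.simple 0 = c' := X_root_inj S h0 hc' hnz h11.symm
        simp [ChevalleyDatum.chainRoot, e, this]
    obtain ⟨v, hv⟩ := good_all S π hπ hc C hC hr' hroot (η₁ * t) (η₂ * u)
    have hv' : v = η c * ((M : F) * t * u) := by
      have h0 : D.simple 0 < D.nroots := hlr c ▸ N.act_lt hD (hl c) c.2
      refine X_inj S h0 ?_
      rw [← π_psi S π hπ C hC, ← hv, map_commutatorElement, π_L, π_L, himg]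
    rw [hv'] at hv
    show _ = (g c)⁻¹ * psi S π hπ C (η c * ((M : F) * t * u)) * g c
    rw [← hv, show (g c)⁻¹ * ⁅L S π hπ r' (η₁ * t), L S π hπ s' (η₂ * u)⁆ * g c =
      (g c)⁻¹ * ⁅L S π hπ r' (η₁ * t), L S π hπ s' (η₂ * u)⁆ * ((g c)⁻¹)⁻¹ by rw [inv_inv],
      conjugate_commutatorElement, inv_inv]
    refine bracket_congr π hc ?_ ?_
    · simp only [map_mul, map_inv, π_L, hgl, ← k1]; group
    · simp only [map_mul, map_inv, π_L, hgl, ← k2]; group
  let f : Fin D.nroots × F → E := fun q => Y q.1 q.2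
  have hf : ∀ r (hr : r < D.nroots) (t : F), FreeGroup.lift f (D.stX r t) = Y ⟨r, hr⟩ t := fun r hr t => by
    simp [ChevalleyDatum.stX, hr, f]
  have hrels : ∀ x ∈ D.steinbergRelsAB F, FreeGroup.lift f x = 1 := by
    rintro x (⟨r, t, u, hr, rfl⟩ | ⟨r, s, t, u, hr, hs, h1, h2, rfl⟩)
    · rw [map_mul, map_mul, map_inv, hf r hr, hf r hr, hf r hr, hYadd, mul_inv_cancel]
    · rw [map_mul, map_mul, map_mul, map_mul, map_inv, map_inv, map_inv, hf r hr, hf s hs, mul_inv_eq_one,
        ChevalleyDatum.commWord, commTerms_eq hrows hr hs]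
      rcases chain_cases hrows hr s with e | ⟨c, M, e, -, -, -, hcl, -⟩
      · rw [e]
        have hns : noSum D r s = true := by simp [noSum, hr, hs, h2, e]
        have : Commute (Y ⟨r, hr⟩ t) (Y ⟨s, hs⟩ u) :=
          commute_congr π hc (lift_commute S π hπ hc C hC hns t u) (by rw [hY, π_L]) (by rw [hY, π_L])
        simp only [ChevalleyDatum.stWord, List.map_nil, List.prod_nil, map_one]
        rw [mul_assoc _ (Y ⟨s, hs⟩ u), ← this.eq]
        group
      · rw [e]
        simp only [ChevalleyDatum.stWord, List.map_cons, List.map_nil, List.prod_cons, List.prod_nil, mul_one, map_mul,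
          map_one, hf c hcl, pow_one]
        have hb := bracket_congr π hc (p := (Y ⟨r, hr⟩ t)⁻¹) (p' := L S π hπ r (-t)) (q := (Y ⟨s, hs⟩ u)⁻¹)
          (q' := L S π hπ s (-u)) (by rw [hYneg, hY, π_L]) (by rw [hYneg, hY, π_L])
        rw [main ⟨r, hr⟩ ⟨s, hs⟩ ⟨c, hcl⟩ M e] at hb
        rw [show (Y ⟨s, hs⟩ u)⁻¹ * (Y ⟨r, hr⟩ t)⁻¹ * Y ⟨s, hs⟩ u * Y ⟨r, hr⟩ t =
          ⁅(Y ⟨r, hr⟩ t)⁻¹, (Y ⟨s, hs⟩ u)⁻¹⁆⁻¹ by rw [commutatorElement_def]; group, hb, hYneg]
        congr 1
        ring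
  refine ⟨PresentedGroup.toGroup hrels, fun r hr t => ?_⟩
  have : PresentedGroup.toGroup hrels (D.scGen F r t) = Y ⟨r, hr⟩ t := by
    simp only [ChevalleyDatum.scGen, ChevalleyDatum.stX, hr, dite_true]
    exact PresentedGroup.toGroup.of hrels
  rw [this, hY]

end ext

end CfsgLib.Chev.Univ
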