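import Mathlib

/-! Steinberg symbols on a finite field are trivial. -/
set_option autoImplicit false

namespace CfsgLib.Chev.Univ

open Polynomial

theorem symbol_trivial {F : Type*} [Field F] [Finite F] {A : Type*} [CommGroup A] (s : Fˣ → Fˣ → A)
    (hl : ∀ a b c, s (a * b) c = s a c * s b c) (hr : ∀ a b c, s a (b * c) = s a b * s a c)
    (h1 : ∀ a b : Fˣ, (a : F) + b = 1 → s a b = 1) (a b : Fˣ) : s a b = 1 := by
  classical
  have := Fintype.ofFinite F
  let L : Fˣ → Fˣ →* A := fun c => MonoidHom.mk' (fun a => s a c) fun x y => hl x y c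
  let R : Fˣ → Fˣ →* A := fun c => MonoidHom.mk' (fun b => s c b) fun x y => hr c x y
  have hn : ∀ t : Fˣ, s t (-t) = 1 := by
    intro t
    by_cases ht : t = 1
    · subst ht; exact (L (-1)).map_one
    have ht' : (t : F) ≠ 1 := fun h => ht (Units.ext h)
    have hp : (1 : F) - t ≠ 0 := sub_ne_zero.2 (Ne.symm ht')
    have hq : (1 : F) - (t : F)⁻¹ ≠ 0 := sub_ne_zero.2 fun h => ht' (inv_eq_one.1 h.symm)
    have e : -t = Units.mk0 _ hp * (Units.mk0 _ hq)⁻¹ := Units.ext (by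
      simp only [Units.val_neg, Units.val_mul, Units.val_inv_eq_inv_val, Units.val_mk0]
      have h0 : (t : F) ≠ 0 := t.ne_zero
      rw [eq_mul_inv_iff_mul_eq₀ hq]
      field_simp
      ring)
    have e1 : s t (Units.mk0 _ hp) = 1 := h1 _ _ (by simp)
    have e2 : s t⁻¹ (Units.mk0 _ hq) = 1 := h1 _ _ (by simp [Units.val_inv_eq_inv_val])
    rw [show s t⁻¹ (Units.mk0 _ hq) = (s t (Units.mk0 _ hq))⁻¹ from (L (Units.mk0 _ hq)).map_inv t,
      inv_eq_one] at e2
    rw [e, hr, e1, one_mul, show s t (Units.mk0 _ hq)⁻¹ = (s t (Units.mk0 _ hq))⁻¹ from (R t).map_inv _, e2, inv_one]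
  obtain ⟨v, hv⟩ := IsCyclic.exists_generator (α := Fˣ)
  suffices hz : s v v = 1 by
    obtain ⟨i, rfl⟩ := Subgroup.mem_zpowers_iff.1 (hv a)
    obtain ⟨j, rfl⟩ := Subgroup.mem_zpowers_iff.1 (hv b)
    change L (v ^ j) (v ^ i) = 1
    rw [map_zpow]
    change (R v (v ^ j)) ^ i = 1
    rw [map_zpow]
    change ((s v v) ^ j) ^ i = 1
    rw [hz, one_zpow, one_zpow]
  by_cases h2 : ringChar F = 2
  · have : CharP F 2 := ringChar.of_eq h2
    have e := hn v
    rwa [show -v = v from Units.ext (by rw [Units.val_neg]; exact CharTwo.neg_eq (v : F))] at e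
  have hvs : ¬IsSquare (v : F) := by
    rintro ⟨w, hw⟩
    obtain ⟨n, hn'⟩ := FiniteField.exists_nonsquare h2
    have hn0 : n ≠ 0 := fun h => hn' ⟨0, by simp [h]⟩
    obtain ⟨i, hi⟩ := Subgroup.mem_zpowers_iff.1 (hv (Units.mk0 n hn0))
    refine hn' ⟨w ^ i, ?_⟩
    rw [← mul_zpow, ← hw, ← Units.val_zpow_eq_zpow_val, hi, Units.val_mk0]
  set z := s v v
  have hzm : z = (s v (-1))⁻¹ := by
    have e := hn v
    rw [show -v = v * -1 by simp, hr] at e
    exact eq_inv_of_mul_eq_one_left e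
  have hz2 : z * z = 1 := by
    rw [hzm, ← mul_inv, ← hr, neg_one_mul, neg_neg, show s v 1 = 1 from (R v).map_one, inv_one]
  obtain ⟨x, y, hxy⟩ := FiniteField.exists_root_sum_quadratic (f := (X ^ 2 : F[X]))
    (g := (X ^ 2 - C (v : F)⁻¹ : F[X])) (by simp) (degree_X_pow_sub_C (by norm_num) _)
    (FiniteField.odd_card_of_char_ne_two h2)
  simp only [eval_pow, eval_X, eval_sub, eval_C] at hxy
  have hx : x ≠ 0 := by
    rintro rfl
    exact hvs (isSquare_inv.1 ⟨y, by linear_combination -hxy⟩)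
  have hy : y ≠ 0 := by
    rintro rfl
    exact hvs (isSquare_inv.1 ⟨x, by linear_combination -hxy⟩)
  have key : s (v * (Units.mk0 x hx * Units.mk0 x hx)) (v * (Units.mk0 y hy * Units.mk0 y hy)) = 1 := by
    refine h1 _ _ ?_
    have hv0 : (v : F) ≠ 0 := v.ne_zero
    simp only [Units.val_mul, Units.val_mk0]
    linear_combination (v : F) * hxy + (mul_inv_cancel₀ hv0)
  have sq : ∀ p q : Fˣ, s p q * s p q = 1 := fun p q => by
    obtain ⟨i, rfl⟩ := Subgroup.mem_zpowers_iff.1 (hv p)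
    obtain ⟨j, rfl⟩ := Subgroup.mem_zpowers_iff.1 (hv q)
    change L (v ^ j) (v ^ i) * L (v ^ j) (v ^ i) = 1
    rw [map_zpow]
    change (R v (v ^ j)) ^ i * (R v (v ^ j)) ^ i = 1
    rw [map_zpow, ← mul_zpow, ← mul_zpow]
    change ((z * z) ^ j) ^ i = 1
    rw [hz2, one_zpow, one_zpow]
  simpa [hl, hr, sq] using key

end CfsgLib.Chev.Univ
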