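import Cfsg.Agent.Lib.Chev.Abstract.Perfect
import Cfsg.Agent.Lib.Chev.Univ.SimplyLaced
import Cfsg.Agent.Lib.Chev.Univ.Symbol

/-! Over a finite field the relations (R3) follow from (R1) and (R2). -/
set_option autoImplicit false
set_option maxRecDepth 100000
open Cfsg.Lie
open scoped Matrix MatrixGroups commutatorElement

namespace CfsgLib.Chev.Univ

open CfsgLib.Chev CfsgLib.Chev.Checks CfsgLib.Chev.Basic CfsgLib.Chev.Abstract

variable {D : ChevalleyDatum} {F : Type*} [Field F] {hD : D ∈ dataList} {G : Type*} [Group G] (S : Sys hD F G)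

theorem n_conj_pos {i : ℕ} (hi : i < D.rank) {t : F} (ht : t ≠ 0) (k : F) :
    S.n (D.simple i) t * S.X (D.simple i) k * (S.n (D.simple i) t)⁻¹ = S.X (D.neg (D.simple i)) (-k / t ^ 2) := by
  have hp := Rel.simple_lt hD hi
  have hη : (Rel.eta hD i (D.simple i) : F) = -1 := by
    unfold Rel.eta; rw [(Rel.refl hD hi).eta_p]; simp
  have h1 := S.n_conj hi hp k
  rw [Weyl.reflect_simple, hη, neg_one_mul] at h1
  rw [S.n_eq_h hp t, show S.h (D.simple i) t * S.n (D.simple i) 1 * S.X (D.simple i) k *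
      (S.h (D.simple i) t * S.n (D.simple i) 1)⁻¹ = S.h (D.simple i) t *
      (S.n (D.simple i) 1 * S.X (D.simple i) k * (S.n (D.simple i) 1)⁻¹) * (S.h (D.simple i) t)⁻¹ by group,
    h1, S.h_conj hi (Checks.neg_lt hD hp) ht, Weight.cartan_neg hD hi hp, (Rel.refl hD hi).cartan_p]
  congr 1
  rw [zpow_neg, zpow_ofNat, div_eq_mul_inv]
  ring

theorem n_conj_neg {i : ℕ} (hi : i < D.rank) {t : F} (ht : t ≠ 0) (z : F) :
    S.n (D.simple i) t * S.X (D.neg (D.simple i)) z * (S.n (D.simple i) t)⁻¹ = S.X (D.simple i) (-(t ^ 2 * z)) := by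
  have hp := Rel.simple_lt hD hi
  have hη : (Rel.eta hD i (D.neg (D.simple i)) : F) = -1 := by
    unfold Rel.eta; rw [(Rel.refl hD hi).eta_neg _ hp, (Rel.refl hD hi).eta_p]; simp
  have h1 := S.n_conj hi (Checks.neg_lt hD hp) z
  rw [Rel.reflect_neg hD hi hp, Weyl.reflect_simple, Checks.neg_neg_root hD hp, hη, neg_one_mul] at h1
  rw [S.n_eq_h hp t, show S.h (D.simple i) t * S.n (D.simple i) 1 * S.X (D.neg (D.simple i)) z *
      (S.h (D.simple i) t * S.n (D.simple i) 1)⁻¹ = S.h (D.simple i) t *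
      (S.n (D.simple i) 1 * S.X (D.neg (D.simple i)) z * (S.n (D.simple i) 1)⁻¹) * (S.h (D.simple i) t)⁻¹ by group,
    h1, S.h_conj hi hp ht, (Rel.refl hD hi).cartan_p]
  congr 1
  rw [zpow_ofNat]
  ring

/-- the multiplicative identity coming from `y(1)y(b) = y(1+b)` -/
theorem h_special {i : ℕ} (hi : i < D.rank) {b : F} (hb : b ≠ 0) (hc : 1 + b ≠ 0) :
    S.h (D.simple i) (b / (1 + b)) * S.h (D.simple i) (-1 / b) = S.h (D.simple i) (-1 / (1 + b)) := by
  have hp := Rel.simple_lt hD hi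
  have hm := Checks.neg_lt hD hp
  set p := D.simple i
  set m := D.neg p
  set c := 1 + b with hcdef
  have hy : ∀ s : F, S.X m s = S.X p s⁻¹ * S.n p (-s⁻¹) * S.X p s⁻¹ := fun s => by
    rw [Sys.n, inv_neg, neg_neg, inv_inv, ← mul_assoc, ← mul_assoc, S.add p hp, add_neg_cancel, S.X_zero hp,
      one_mul, mul_assoc, S.add p hp, neg_add_cancel, S.X_zero hp, mul_one]
  have h := S.add m hm 1 b
  rw [hy 1, hy b, hy c, inv_one] at h
  have e1 : S.n p (-1) * (S.X p 1 * S.X p b⁻¹) * (S.n p (-1))⁻¹ = S.X m (-(c / b)) := by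
    rw [S.add p hp, n_conj_pos S hi (neg_ne_zero.2 one_ne_zero)]
    congr 1
    rw [hcdef]; field_simp; ring
  have e2 : S.X m (-(c / b)) = S.X p (-(b / c)) * S.n p (b / c) * S.X p (-(b / c)) := by
    rw [hy, inv_neg, inv_div, neg_neg]
  have e3 : S.n p (-1) * S.n p (-b⁻¹) * S.X p (-(1 / (b * c))) * (S.n p (-1) * S.n p (-b⁻¹))⁻¹ = S.X p (-(b / c)) := by
    rw [show ∀ a u x : G, a * u * x * (a * u)⁻¹ = a * (u * x * u⁻¹) * a⁻¹ from fun a u x => by group,
      n_conj_pos S hi (neg_ne_zero.2 (inv_ne_zero hb)), n_conj_neg S hi (neg_ne_zero.2 one_ne_zero)]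
    congr 1
    field_simp
  have key : S.n p (b / c) * (S.n p (-1) * S.n p (-b⁻¹)) = S.n p (-c⁻¹) := by
    have a1 : S.X p 1 * S.X p (-(b / c)) = S.X p c⁻¹ := by
      rw [S.add p hp]; congr 1; rw [hcdef] at hc ⊢; field_simp; ring
    have a2 : S.X p (-(1 / (b * c))) * S.X p b⁻¹ = S.X p c⁻¹ := by
      rw [S.add p hp]; congr 1; rw [hcdef] at hc ⊢; field_simp; ring
    rw [e2] at e1
    have lhs : S.X p 1 * S.n p (-1) * S.X p 1 * (S.X p b⁻¹ * S.n p (-b⁻¹) * S.X p b⁻¹) =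
        S.X p c⁻¹ * (S.n p (b / c) * (S.n p (-1) * S.n p (-b⁻¹))) * S.X p c⁻¹ :=
      calc S.X p 1 * S.n p (-1) * S.X p 1 * (S.X p b⁻¹ * S.n p (-b⁻¹) * S.X p b⁻¹)
          = S.X p 1 * (S.n p (-1) * (S.X p 1 * S.X p b⁻¹) * (S.n p (-1))⁻¹) * S.n p (-1) * S.n p (-b⁻¹) *
              S.X p b⁻¹ := by group
        _ = (S.X p 1 * S.X p (-(b / c))) * S.n p (b / c) * (S.X p (-(b / c)) * (S.n p (-1) * S.n p (-b⁻¹))) *
              S.X p b⁻¹ := by rw [e1]; group
        _ = (S.X p 1 * S.X p (-(b / c))) * (S.n p (b / c) * (S.n p (-1) * S.n p (-b⁻¹))) *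
              (S.X p (-(1 / (b * c))) * S.X p b⁻¹) := by rw [← e3]; group
        _ = _ := by rw [a1, a2]
    rw [lhs] at h
    exact mul_left_cancel (mul_right_cancel h)
  simp only [Sys.h, neg_div, one_div]
  rw [← key]; group

variable [Finite F]

theorem r3_of_family (hgen : S.Gen) {i : ℕ} (hi : i < D.rank) (κ : Fˣ → G)
    (hκm : ∀ a b, S.θ (κ (a * b)) = S.θ (κ a * κ b))
    (hκp : ∀ (a : Fˣ) x, κ a * S.X (D.simple i) x * (κ a)⁻¹ = S.X (D.simple i) (((a⁻¹ : Fˣ) : F) * x))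
    (hκn : ∀ (a : Fˣ) x, κ a * S.X (D.neg (D.simple i)) x * (κ a)⁻¹ = S.X (D.neg (D.simple i)) ((a : F) * x))
    {t u : F} (ht : t ≠ 0) (hu : u ≠ 0) :
    S.h (D.simple i) t * S.h (D.simple i) u = S.h (D.simple i) (t * u) := by
  have hp := Rel.simple_lt hD hi
  set p := D.simple i
  have hcen := S.ker_le_center hgen
  have hθm : ∀ (r : ℕ), r < D.nroots → ∀ a b : Fˣ,
      S.θ (S.h r (a * b : Fˣ)) = S.θ (S.h r a * S.h r b) := fun r hr a b => by
    rw [map_mul, S.θ_h hr, S.θ_h hr, S.θ_h hr, ← Torus.torus_root hD hr a, ← Torus.torus_root hD hr b,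
      ← Torus.torus_root hD hr (a * b), ← map_mul]
    congr 1
    funext k
    rw [Pi.mul_apply, ← mul_zpow]
  let K : Fˣ → Fˣ → G := fun a b => S.h p (a * b : Fˣ) * (S.h p a)⁻¹ * (S.h p b)⁻¹
  have hK : ∀ a b : Fˣ, K a b = ⁅κ a⁻¹, S.h p b⁆ := by
    intro a b
    have hn : ∀ x : F, κ a⁻¹ * S.n p x * (κ a⁻¹)⁻¹ = S.n p ((a : F) * x) := by
      intro x
      rw [Sys.n, show κ a⁻¹ * (S.X p x * S.X (D.neg p) (-x⁻¹) * S.X p x) * (κ a⁻¹)⁻¹ =
        (κ a⁻¹ * S.X p x * (κ a⁻¹)⁻¹) * (κ a⁻¹ * S.X (D.neg p) (-x⁻¹) * (κ a⁻¹)⁻¹) *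
          (κ a⁻¹ * S.X p x * (κ a⁻¹)⁻¹) by group, hκp, hκn, inv_inv, Sys.n, mul_inv, mul_neg,
        Units.val_inv_eq_inv_val]
    symm
    calc ⁅κ a⁻¹, S.h p b⁆ = (κ a⁻¹ * S.n p b * (κ a⁻¹)⁻¹) * (κ a⁻¹ * S.n p (-1) * (κ a⁻¹)⁻¹) *
          (S.h p b)⁻¹ := by rw [commutatorElement_def, Sys.h.eq_def S p b]; group
      _ = _ := by
        rw [hn, hn, mul_neg, mul_one]
        simp only [K, Sys.h, Units.val_mul, S.n_neg hp]; group
  have hKc : ∀ a b, K a b ∈ Subgroup.center G := fun a b => hcen (by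
    rw [MonoidHom.mem_ker]
    simp only [K, mul_comm a b, map_mul, map_inv, hθm p hp b a]
    group)
  have cen : ∀ a b g, g * K a b = K a b * g := fun a b => Subgroup.mem_center_iff.1 (hKc a b)
  let σ : Fˣ → Fˣ → Subgroup.center G := fun a b => ⟨K a b, hKc a b⟩
  have hl : ∀ a b c, σ (a * b) c = σ a c * σ b c := fun a b c => Subtype.ext (by
    show K (a * b) c = K a c * K b c
    rw [hK (a * b) c, bracket_congr S.θ hcen (p := κ (a * b)⁻¹)
      (p' := κ b⁻¹ * κ a⁻¹) (by rw [mul_inv_rev]; exact hκm _ _) rfl,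
      show ⁅κ b⁻¹ * κ a⁻¹, S.h p c⁆ =
        κ b⁻¹ * ⁅κ a⁻¹, S.h p c⁆ * (κ b⁻¹)⁻¹ * ⁅κ b⁻¹, S.h p c⁆ by
        simp only [commutatorElement_def]; group,
      ← hK, ← hK, cen a c (κ b⁻¹), mul_inv_cancel_right, cen b c])
  have hr : ∀ a b c, σ a (b * c) = σ a b * σ a c := fun a b c => Subtype.ext (by
    show K a (b * c) = K a b * K a c
    rw [hK a (b * c), bracket_congr S.θ hcen rfl (q := S.h p (b * c : Fˣ)) (q' := S.h p b * S.h p c) (hθm p hp b c),
      show ⁅κ a⁻¹, S.h p b * S.h p c⁆ =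
        ⁅κ a⁻¹, S.h p b⁆ * (S.h p b * ⁅κ a⁻¹, S.h p c⁆ * (S.h p b)⁻¹) by
        simp only [commutatorElement_def]; group,
      ← hK, ← hK, cen a c (S.h p b), mul_inv_cancel_right])
  have hone : ∀ v w : Fˣ, (v : F) + w = 1 → σ v w = 1 := by
    intro v w hvw
    have hv0 : (v : F) ≠ 0 := v.ne_zero
    have hw0 : (w : F) ≠ 0 := w.ne_zero
    set b : F := -1 / v with hb
    have hb0 : b ≠ 0 := div_ne_zero (neg_ne_zero.2 one_ne_zero) hv0
    have hbc : 1 + b = -w / v := by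
      rw [hb]; field_simp; linear_combination hvw
    have h := h_special S hi hb0 (by rw [hbc]; exact div_ne_zero (neg_ne_zero.2 hw0) hv0)
    rw [show b / (1 + b) = ((w⁻¹ : Fˣ) : F) by rw [hbc, hb, Units.val_inv_eq_inv_val]; field_simp,
      show -1 / b = (v : F) by rw [hb]; field_simp,
      show -1 / (1 + b) = ((v * w⁻¹ : Fˣ) : F) by rw [hbc, Units.val_mul, Units.val_inv_eq_inv_val]; field_simp] at h
    have e : σ v w⁻¹ = 1 := Subtype.ext (by
      show S.h (D.simple i) (v * w⁻¹ : Fˣ) * (S.h (D.simple i) v)⁻¹ * (S.h (D.simple i) (w⁻¹ : Fˣ))⁻¹ = 1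
      rw [← h, mul_inv_cancel_right, mul_inv_cancel])
    have e' := hr v w⁻¹ w
    rw [inv_mul_cancel, e, one_mul] at e'
    have e1 := hr v 1 1
    rw [one_mul] at e1
    rw [← e', mul_eq_left.1 e1.symm]
  let _ : CommGroup (Subgroup.center G) :=
    { (inferInstance : Group (Subgroup.center G)) with
      mul_comm := fun x y => Subtype.ext (Subgroup.mem_center_iff.1 y.2 x) }
  have := congrArg Subtype.val (symbol_trivial σ hl hr hone (Units.mk0 u hu) (Units.mk0 t ht))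
  simp only [σ, K, Units.val_mul, Units.val_mk0, OneMemClass.coe_one,
    mul_inv_eq_iff_eq_mul, one_mul] at this
  rw [mul_comm t u]
  exact this.symm

omit [Finite F] in
theorem sum_neg_map (f : ℕ → ℤ) : ∀ l : List ℕ, (l.map fun j => -f j).sum = -(l.map f).sum
  | [] => by simp
  | j :: l => by rw [List.map_cons, List.map_cons, List.sum_cons, List.sum_cons, sum_neg_map f l]; ring

/-- the torus element of a vector, as a word -/
def kv (v : List ℤ) (a : Fˣ) : G :=
  ((List.range D.rank).map fun j => S.h (D.simple j) ((a ^ v.getD j 0 : Fˣ) : F)).prod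

omit [Finite F] in
theorem kv_conj (v : List ℤ) (a : Fˣ) {s : ℕ} (hs : s < D.nroots) (x : F) :
    kv S v a * S.X s x * (kv S v a)⁻¹ =
      S.X s (((a ^ (((List.range D.rank).map fun j => v.getD j 0 * D.cartan j s).sum) : Fˣ) : F) * x) := by
  unfold kv
  suffices ∀ l : List ℕ, (∀ j ∈ l, j < D.rank) → ∀ x : F,
      (l.map fun j => S.h (D.simple j) ((a ^ v.getD j 0 : Fˣ) : F)).prod * S.X s x *
        ((l.map fun j => S.h (D.simple j) ((a ^ v.getD j 0 : Fˣ) : F)).prod)⁻¹ =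
      S.X s (((a ^ ((l.map fun j => v.getD j 0 * D.cartan j s).sum) : Fˣ) : F) * x) from
    this _ (fun j hj => List.mem_range.1 hj) x
  intro l
  induction l with
  | nil => intro _ x; simp
  | cons j l ih =>
    intro hl x
    simp only [List.map_cons, List.prod_cons, List.sum_cons]
    set P := (l.map fun j => S.h (D.simple j) ((a ^ v.getD j 0 : Fˣ) : F)).prod
    rw [show ∀ y : G, S.h (D.simple j) ((a ^ v.getD j 0 : Fˣ) : F) * P * y * (S.h (D.simple j) ((a ^ v.getD j 0 : Fˣ) : F) * P)⁻¹ =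
      S.h (D.simple j) ((a ^ v.getD j 0 : Fˣ) : F) * (P * y * P⁻¹) * (S.h (D.simple j) ((a ^ v.getD j 0 : Fˣ) : F))⁻¹
        from fun y => by group, ih (fun k hk => hl k (List.mem_cons_of_mem _ hk)) x,
      S.h_conj (hl j List.mem_cons_self) hs (Units.ne_zero _), ← mul_assoc, ← Units.val_zpow_eq_zpow_val,
      ← zpow_mul, ← Units.val_mul, ← zpow_add]

omit [Finite F] in
theorem kv_mul (v : List ℤ) (a b : Fˣ) : S.θ (kv S v (a * b)) = S.θ (kv S v a * kv S v b) := by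
  have e : ∀ c : Fˣ, S.θ (kv S v c) =
      Torus.torusHom D F (fun i : Fin D.rank => c ^ v.getD i.1 0) := by
    intro c
    classical
    rw [← Finset.univ_prod_mulSingle fun i : Fin D.rank => c ^ v.getD i.1 0, Fin.prod_univ_def, map_list_prod, kv,
      map_list_prod, List.map_map, List.map_map, ← List.map_coe_finRange_eq_range, List.map_map]
    refine congrArg List.prod (List.map_congr_left fun i _ => ?_)
    rw [Function.comp_apply, Function.comp_apply, Function.comp_apply, S.θ_h (Rel.simple_lt hD i.2),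
      Torus.torus_simple hD]
  rw [map_mul, e, e, e, ← map_mul]
  congr 1
  funext i
  rw [Pi.mul_apply, mul_zpow]

theorem r3 (hgen : S.Gen) {i j : ℕ} (hi : i < D.rank) (hj : j < D.rank) (hij : D.cartan j (D.simple i) = -1)
    {t u : F} (ht : t ≠ 0) (hu : u ≠ 0) :
    S.h (D.simple i) t * S.h (D.simple i) u = S.h (D.simple i) (t * u) := by
  have hq := Rel.simple_lt hD hj
  refine r3_of_family S hgen hi (fun a => S.h (D.simple j) a) (fun a b => ?_) (fun a x => ?_) (fun a x => ?_) ht hu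
  · rw [map_mul, S.θ_h hq, S.θ_h hq, S.θ_h hq, ← Torus.torus_root hD hq a, ← Torus.torus_root hD hq b,
      ← Torus.torus_root hD hq (a * b), ← map_mul]
    congr 1
    funext k
    rw [Pi.mul_apply, ← mul_zpow]
  · rw [S.h_conj hj (Rel.simple_lt hD hi) a.ne_zero, hij, zpow_neg_one, Units.val_inv_eq_inv_val]
  · rw [S.h_conj hj (Checks.neg_lt hD (Rel.simple_lt hD hi)) a.ne_zero,
      Weight.cartan_neg hD hj (Rel.simple_lt hD hi), hij, neg_neg, zpow_one]

/-- (R3) from a vector pairing to `-1` with the root -/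
theorem r3_vec (hgen : S.Gen) {i : ℕ} (hi : i < D.rank) (v : List ℤ)
    (hv : ((List.range D.rank).map fun j => v.getD j 0 * D.cartan j (D.simple i)).sum = -1) {t u : F} (ht : t ≠ 0)
    (hu : u ≠ 0) : S.h (D.simple i) t * S.h (D.simple i) u = S.h (D.simple i) (t * u) := by
  have hp := Rel.simple_lt hD hi
  have hn : ((List.range D.rank).map fun j => v.getD j 0 * D.cartan j (D.neg (D.simple i))).sum = 1 := by
    rw [List.map_congr_left (g := fun j => -(v.getD j 0 * D.cartan j (D.simple i))) fun j hj => by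
      rw [Weight.cartan_neg hD (List.mem_range.1 hj) hp, mul_neg], sum_neg_map, hv, neg_neg]
  exact r3_of_family S hgen hi (kv S v) (kv_mul S v)
    (fun a x => by rw [kv_conj S v a hp, hv, zpow_neg_one]) (fun a x => by rw [kv_conj S v a (Checks.neg_lt hD hp), hn, zpow_one])
    ht hu

end CfsgLib.Chev.Univ
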