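import Cfsg.Agent.Lib.Chev.Univ.R3

/-! Over a finite field the relations (R3) hold for every root. -/
set_option autoImplicit false
set_option maxRecDepth 100000
open Cfsg.Lie
open scoped Matrix MatrixGroups commutatorElement

namespace CfsgLib.Chev.Univ

open CfsgLib.Chev CfsgLib.Chev.Checks CfsgLib.Chev.Basic CfsgLib.Chev.Abstract
open Polynomial in
theorem exists_nonsquare_split {F : Type*} [Field F] [Fintype F] (h2 : ringChar F ≠ 2) {v : F} (hv : ¬IsSquare v) :
    ∃ x y : F, x ≠ 0 ∧ y ≠ 0 ∧ v * x ^ 2 + v * y ^ 2 = 1 := by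
  have hv0 : v ≠ 0 := fun h => hv ⟨0, by simp [h]⟩
  obtain ⟨x, y, hxy⟩ := FiniteField.exists_root_sum_quadratic (f := (X ^ 2 : F[X]))
    (g := (X ^ 2 - C v⁻¹ : F[X])) (by simp) (degree_X_pow_sub_C (by norm_num) _)
    (FiniteField.odd_card_of_char_ne_two h2)
  simp only [eval_pow, eval_X, eval_sub, eval_C] at hxy
  refine ⟨x, y, ?_, ?_, by linear_combination v * hxy + mul_inv_cancel₀ hv0⟩
  · rintro rfl
    exact hv (isSquare_inv.1 ⟨y, by linear_combination -hxy⟩)
  · rintro rfl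
    exact hv (isSquare_inv.1 ⟨x, by linear_combination -hxy⟩)

variable {D : ChevalleyDatum} {F : Type*} [Field F] [Finite F] {hD : D ∈ dataList} {G : Type*} [Group G]
  (S : Sys hD F G)

theorem r3_simple (hgen : S.Gen) {i : ℕ} (hi : i < D.rank) {t u : F} (ht : t ≠ 0) (hu : u ≠ 0) :
    S.h (D.simple i) t * S.h (D.simple i) u = S.h (D.simple i) (t * u) := by
  classical
  have := Fintype.ofFinite F
  have hp := Rel.simple_lt hD hi
  set p := D.simple i with hpdef
  let f : Fˣ → G := fun x => S.h p (x : F)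
  let T : Fˣ →* GL D.Idx F := MonoidHom.mk' (fun x => S.θ (f x)) fun a b => by
    simp only [f, S.θ_h hp]
    rw [← Torus.torus_root hD hp a, ← Torus.torus_root hD hp b, ← Torus.torus_root hD hp (a * b), ← map_mul]
    congr 1
    funext k
    rw [Pi.mul_apply, ← mul_zpow]
  obtain ⟨v, hv⟩ := IsCyclic.exists_generator (α := Fˣ)
  have hcomm : ∀ a b : Fˣ, Commute (f a) (f b) := fun a b => by
    obtain ⟨j, rfl⟩ := Subgroup.mem_zpowers_iff.1 (hv a)
    obtain ⟨k, rfl⟩ := Subgroup.mem_zpowers_iff.1 (hv b)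
    refine commute_congr S.θ (S.ker_le_center hgen) (Commute.zpow_zpow_self (f v) j k) ?_ ?_
    · exact (map_zpow T v j).trans (map_zpow S.θ (f v) j).symm
    · exact (map_zpow T v k).trans (map_zpow S.θ (f v) k).symm
  have hsq : ∀ a b : Fˣ, f (a * a * b) = f b * f (a * a) := by
    intro a b
    have hn : ∀ x : F, S.h p a * S.n p x * (S.h p a)⁻¹ = S.n p ((a : F) * a * x) := by
      intro x
      rw [Sys.n, show S.h p a * (S.X p x * S.X (D.neg p) (-x⁻¹) * S.X p x) * (S.h p a)⁻¹ =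
        (S.h p a * S.X p x * (S.h p a)⁻¹) * (S.h p a * S.X (D.neg p) (-x⁻¹) * (S.h p a)⁻¹) *
          (S.h p a * S.X p x * (S.h p a)⁻¹) by group, hpdef, S.h_conj hi (Rel.simple_lt hD hi) a.ne_zero,
        S.h_conj hi (Checks.neg_lt hD (Rel.simple_lt hD hi)) a.ne_zero, Weight.cartan_neg hD hi (Rel.simple_lt hD hi),
        (Rel.refl hD hi).cartan_p, zpow_neg, zpow_ofNat, pow_two, Sys.n, mul_inv ((a : F) * a), mul_neg]
    have e : S.h p a * S.h p b * (S.h p a)⁻¹ = S.h p ((a : F) * a * b) * (S.h p ((a : F) * a))⁻¹ := by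
      calc S.h p a * S.h p b * (S.h p a)⁻¹
          = (S.h p a * S.n p b * (S.h p a)⁻¹) * (S.h p a * S.n p (-1) * (S.h p a)⁻¹) := by
            rw [Sys.h.eq_def S p b]; group
        _ = _ := by rw [hn, hn, mul_neg, mul_one]; simp only [Sys.h, S.n_neg hp]; group
    have hc := hcomm a b
    simp only [f] at hc ⊢
    rw [hc.eq, mul_inv_cancel_right] at e
    rw [Units.val_mul, Units.val_mul]
    exact mul_inv_eq_iff_eq_mul.1 e.symm
  suffices key : ∀ a b : Fˣ, f a * f b = f (a * b) from key (Units.mk0 t ht) (Units.mk0 u hu)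
  have ksq : ∀ a b : Fˣ, f (a * a) * f b = f (a * a * b) := fun a b => by rw [hsq, (hcomm _ _).eq]
  have hval : ∀ a : Fˣ, ∃ s : Fˣ, a = s * s ∨ a = v * (s * s) := fun a => by
    obtain ⟨j, rfl⟩ := Subgroup.mem_zpowers_iff.1 (hv a)
    rcases Int.even_or_odd j with ⟨m, rfl⟩ | ⟨m, rfl⟩
    · exact ⟨v ^ m, Or.inl (zpow_add v m m)⟩
    · exact ⟨v ^ m, Or.inr (by rw [← zpow_add, ← zpow_one_add]; congr 1; ring)⟩
  have kv : ∀ s : Fˣ, f (v * (s * s)) = f v * f (s * s) := fun s => by rw [mul_comm v, hsq]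
  have hvv : f v * f v = f (v * v) := by
    by_cases h2 : ringChar F = 2
    · obtain ⟨w, hw⟩ := FiniteField.isSquare_of_char_two h2 (v : F)
      have hw0 : w ≠ 0 := fun h => v.ne_zero (by rw [hw, h, mul_zero])
      rw [show v = Units.mk0 w hw0 * Units.mk0 w hw0 from Units.ext hw, ksq]
    have hvs : ¬IsSquare (v : F) := by
      rintro ⟨w, hw⟩
      obtain ⟨n, hn'⟩ := FiniteField.exists_nonsquare h2
      have hn0 : n ≠ 0 := fun h => hn' ⟨0, by simp [h]⟩
      obtain ⟨j, hj⟩ := Subgroup.mem_zpowers_iff.1 (hv (Units.mk0 n hn0))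
      refine hn' ⟨w ^ j, ?_⟩
      rw [← mul_zpow, ← hw, ← Units.val_zpow_eq_zpow_val, hj, Units.val_mk0]
    obtain ⟨x, y, hx, hy, hxy⟩ := exists_nonsquare_split h2 hvs
    have hv0 : (v : F) ≠ 0 := v.ne_zero
    have ha : (v : F) * x ^ 2 ≠ 0 := mul_ne_zero hv0 (pow_ne_zero _ hx)
    have hb : (v : F) * y ^ 2 ≠ 0 := mul_ne_zero hv0 (pow_ne_zero _ hy)
    set b : F := -1 / ((v : F) * x ^ 2) with hbdef
    have hb0 : b ≠ 0 := div_ne_zero (neg_ne_zero.2 one_ne_zero) ha
    have hbc : 1 + b = -((v : F) * y ^ 2) / ((v : F) * x ^ 2) := by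
      rw [hbdef]; field_simp; linear_combination hxy
    have h := h_special S hi hb0 (by rw [hbc]; exact div_ne_zero (neg_ne_zero.2 hb) ha)
    set r : Fˣ := Units.mk0 x hx
    set s : Fˣ := (v * Units.mk0 y hy)⁻¹
    rw [show b / (1 + b) = ((v * (s * s) : Fˣ) : F) by
        rw [hbc, hbdef]
        simp only [s, Units.val_mul, Units.val_inv_eq_inv_val, Units.val_mk0]
        field_simp,
      show -1 / b = ((v * (r * r) : Fˣ) : F) by
        rw [hbdef]; simp only [r, Units.val_mul, Units.val_mk0]; field_simp,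
      show -1 / (1 + b) = ((v * v * ((s * r) * (s * r)) : Fˣ) : F) by
        rw [hbc]
        simp only [r, s, Units.val_mul, Units.val_inv_eq_inv_val, Units.val_mk0]
        field_simp] at h
    have h' : f (v * (s * s)) * f (v * (r * r)) = f (v * v * (s * r * (s * r))) := h
    rw [kv, kv, show f v * f (s * s) * (f v * f (r * r)) = f v * f v * (f (s * s) * f (r * r)) by
        rw [mul_assoc, ← mul_assoc (f (s * s)), (hcomm (s * s) v).eq]; group, ksq,
      show s * s * (r * r) = s * r * (s * r) from mul_mul_mul_comm s s r r,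
      show f (v * v * (s * r * (s * r))) = f (v * v) * f (s * r * (s * r)) from (ksq v _).symm] at h'
    exact mul_right_cancel h'
  intro a b
  obtain ⟨r, rfl | rfl⟩ := hval a <;> obtain ⟨s, rfl | rfl⟩ := hval b
  · exact ksq r _
  · exact ksq r _
  · rw [mul_assoc v, show r * r * (s * s) = r * s * (r * s) from mul_mul_mul_comm r r s s, kv, kv, mul_assoc,
      ksq, mul_mul_mul_comm r r s s]
  · rw [show v * (r * r) * (v * (s * s)) = v * v * (r * s * (r * s)) by
        rw [mul_mul_mul_comm v _ v, mul_mul_mul_comm r r s s], kv, kv, ← ksq v, ← hvv,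
      ← show f (r * r) * f (s * s) = f (r * s * (r * s)) by rw [ksq, mul_mul_mul_comm r r s s],
      mul_assoc, ← mul_assoc (f (r * r)), (hcomm (r * r) v).eq]
    group

omit [Finite F] in
theorem conj_n_any {l : List ℕ} (hl : ∀ i ∈ l, i < D.rank) {r : ℕ} (hr : r < D.nroots) :
    ∃ η : F, (η = 1 ∨ η = -1) ∧ ∀ t : F, S.nW l * S.n r t * (S.nW l)⁻¹ = S.n (N.act D l r) (η * t) := by
  induction l with
  | nil => exact ⟨1, Or.inl rfl, fun t => by simp [Sys.nW, N.act]⟩
  | cons i l ih =>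
    have hl' : ∀ j ∈ l, j < D.rank := fun j hj => hl j (List.mem_cons_of_mem _ hj)
    have hi := hl i List.mem_cons_self
    obtain ⟨η, hη, h⟩ := ih hl'
    have hrl := N.act_lt hD hl' hr
    set r' := N.act D l r
    refine ⟨(Rel.eta hD i r' : F) * η, ?_, fun t => ?_⟩
    · rcases Rel.eta_cases hD i r' with e | e <;> rcases hη with f | f <;> simp [e, f]
    have hinv : ((Rel.eta hD i r' : F) * η * t)⁻¹ = (Rel.eta hD i r' : F) * (η * t)⁻¹ := by
      rcases Rel.eta_cases hD i r' with e | e <;> simp [e, mul_comm, inv_neg]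
    have hneg : (Rel.eta hD i (D.neg r') : F) = (Rel.eta hD i r' : F) := by
      unfold Rel.eta; rw [(Rel.refl hD hi).eta_neg r' hrl]
    rw [Sys.nW_cons, mul_inv_rev,
      show S.ni i * S.nW l * S.n r t * ((S.nW l)⁻¹ * (S.ni i)⁻¹) =
        S.ni i * (S.nW l * S.n r t * (S.nW l)⁻¹) * (S.ni i)⁻¹ by group, h, Sys.n]
    calc S.ni i * (S.X r' (η * t) * S.X (D.neg r') (-(η * t)⁻¹) * S.X r' (η * t)) * (S.ni i)⁻¹
        = (S.ni i * S.X r' (η * t) * (S.ni i)⁻¹) * (S.ni i * S.X (D.neg r') (-(η * t)⁻¹) * (S.ni i)⁻¹) *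
            (S.ni i * S.X r' (η * t) * (S.ni i)⁻¹) := by group
      _ = _ := by
        rw [S.n_conj hi hrl, S.n_conj hi (Checks.neg_lt hD hrl), Rel.reflect_neg hD hi hrl, hneg, Sys.n,
          N.act_cons, hinv, mul_assoc _ η t, mul_neg]

theorem r3_all (hgen : S.Gen) {r : ℕ} (hr : r < D.nroots) {t u : F} (ht : t ≠ 0) (hu : u ≠ 0) :
    S.h r t * S.h r u = S.h r (t * u) := by
  refine Rel.root_induction hD (P := fun r => ∀ t u : F, t ≠ 0 → u ≠ 0 → S.h r t * S.h r u = S.h r (t * u))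
    (fun a ha t u => r3_simple S hgen ha) (fun i r hi hr ih t u ht hu => ?_) hr t u ht hu
  have hr' : D.reflectRoot i r < D.nroots := Rel.reflectRoot_lt hD hi hr
  obtain ⟨η, hη, h⟩ := conj_n_any S (l := [i]) (List.forall_mem_singleton.2 hi) hr
  rw [Weyl.act_singleton] at h
  have h1 : η * η = 1 ∧ η ≠ 0 := by rcases hη with rfl | rfl <;> simp
  have key : ∀ x : F, x ≠ 0 → S.nW [i] * S.h r x * (S.nW [i])⁻¹ = S.h (D.reflectRoot i r) x := by
    intro x hx
    -- `n(ηx) n(-η) = h(ηx) h(η)⁻¹`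
    have e : S.nW [i] * S.h r x * (S.nW [i])⁻¹ =
        S.h (D.reflectRoot i r) (η * x) * (S.h (D.reflectRoot i r) η)⁻¹ := by
      calc S.nW [i] * S.h r x * (S.nW [i])⁻¹
          = (S.nW [i] * S.n r x * (S.nW [i])⁻¹) * (S.nW [i] * S.n r (-1) * (S.nW [i])⁻¹) := by
            rw [Sys.h.eq_def S r x]; group
        _ = _ := by rw [h, h, mul_neg, mul_one]; simp only [Sys.h, S.n_neg hr']; group
    have hm : ∀ a b : F, a ≠ 0 → b ≠ 0 →
        S.h (D.reflectRoot i r) a * S.h (D.reflectRoot i r) b = S.h (D.reflectRoot i r) (a * b) := ih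
    rw [e, mul_comm η x, ← hm x η hx h1.2, mul_inv_cancel_right]
  have hcan : ∀ a b : G, S.nW [i] * a * (S.nW [i])⁻¹ = S.nW [i] * b * (S.nW [i])⁻¹ → a = b :=
    fun a b e => mul_left_cancel (mul_right_cancel e)
  refine hcan _ _ ?_
  rw [show ∀ a b : G, S.nW [i] * (a * b) * (S.nW [i])⁻¹ = S.nW [i] * a * (S.nW [i])⁻¹ * (S.nW [i] * b * (S.nW [i])⁻¹)
      from fun a b => by group, key t ht, key u hu, key _ (mul_ne_zero ht hu)]
  exact ih t u ht hu

end CfsgLib.Chev.Univ
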