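import Cfsg.Agent.Lib.Chev.Univ.SimplyLaced
import Cfsg.Agent.Lib.Chev.Group.Canonical
import Cfsg.Agent.Lib.Chev.Group.RootChar

/-! Central extensions of a Chevalley group split over the relations (R1), (R2) (torus method). -/
set_option autoImplicit false
set_option maxRecDepth 100000
open Cfsg.Lie
open scoped Matrix MatrixGroups commutatorElement

namespace CfsgLib.Chev.Univ.TorusLift

open CfsgLib.Chev CfsgLib.Chev.Checks CfsgLib.Chev.Basic CfsgLib.Chev.Univ

/-- torus vectors, words with the positive sets they produce, decompositions `(p, q, r)` -/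
structure Cert where
  vs : List (List ℤ)
  ws : List (List ℕ × List ℕ)
  decs : List (ℕ × ℕ × ℕ)

/-- which integers are exponents killing / moving the field, and which field properties are present -/
structure Mode where
  zr : ℤ → Bool
  nz : ℤ → Bool
  okA : Bool
  okB : Bool
  two : Bool

def lam (D : ChevalleyDatum) (v : List ℤ) (r : ℕ) : ℤ :=
  ((List.range D.rank).map fun i => v.getD i 0 * D.cartan i r).sum

def comOK (D : ChevalleyDatum) (x y : ℕ) : Bool :=
  decide (x < D.nroots) && decide (y < D.nroots) && (x == y || (y != D.neg x && (D.commTerms x y).isEmpty))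

def decOK (D : ChevalleyDatum) (m : Mode) (d : ℕ × ℕ × ℕ) : Bool :=
  decide (d.1 < D.nroots) && decide (d.2.1 < D.nroots) && decide (d.2.2 < D.nroots) && d.2.1 != d.1 &&
    d.2.1 != D.neg d.1 &&
    match D.commTerms d.1 d.2.1 with
    | [(c, M, 1, 1)] => c == d.2.2 && (M == 1 || M == -1 || (m.two && (M == 2 || M == -2)))
    | _ => false

def cmtOK (D : ChevalleyDatum) (m : Mode) (C : Cert) (a b : ℕ) : Bool :=
  decide (b ≠ a) && decide (b ≠ D.neg a) && (D.commTerms a b).isEmpty &&
    C.decs.any fun d => decOK D m d &&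
      ((d.2.2 == a && comOK D d.1 b && comOK D d.2.1 b) || (d.2.2 == b && comOK D a d.1 && comOK D a d.2.1))

def selfOK (D : ChevalleyDatum) (m : Mode) (C : Cert) (r : ℕ) : Bool :=
  (m.okA && C.vs.any fun v => lam D v r == 1) || (m.okB && C.vs.any fun v => lam D v r == 2) ||
    C.decs.any fun d => decOK D m d && d.2.2 == r && comOK D r d.1 && comOK D r d.2.1

def tPair (D : ChevalleyDatum) (m : Mode) (C : Cert) (a b : ℕ) : Bool :=
  decide (b ≠ a) && decide (b ≠ D.neg a) && C.vs.any fun v => m.zr (lam D v a) && m.nz (lam D v b)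

def cmtT (D : ChevalleyDatum) (m : Mode) (C : Cert) (a b : ℕ) : Bool :=
  (D.commTerms a b).isEmpty && (D.commTerms b a).isEmpty && (tPair D m C a b || tPair D m C b a)

def cmtAny (D : ChevalleyDatum) (m : Mode) (C : Cert) (a b : ℕ) : Bool := cmtT D m C a b || cmtOK D m C a b

def psi (D : ChevalleyDatum) (a b : ℕ) : List ℕ := b :: (D.commTerms a b).map fun c => c.1

def injList (D : ChevalleyDatum) (m : Mode) (C : Cert) : List ℕ → Bool
  | [] => true
  | a :: l => decide (a < D.nroots) && !l.contains a && (D.commTerms a a).isEmpty &&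
      (l.all fun c => (tPair D m C a c && (psi D a c).all fun x => l.contains x) || cmtAny D m C a c) &&
      (l.all fun x => l.all fun y => (D.commTerms x y).all fun t => l.contains t.1) && injList D m C l

def injOK (D : ChevalleyDatum) (m : Mode) (C : Cert) (l : List ℕ) : Bool :=
  injList D m C l && C.ws.any fun w => l.all fun x => w.2.contains x

def pairOK (D : ChevalleyDatum) (m : Mode) (C : Cert) (r s : ℕ) : Bool :=
  (tPair D m C r s && injOK D m C (psi D r s)) ||
    (tPair D m C s r && injOK D m C (psi D s r) && (D.commTerms r s).all fun t => (psi D s r).contains t.1) ||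
    cmtAny D m C r s

def wsOK (D : ChevalleyDatum) (C : Cert) : Bool :=
  C.ws.all fun w => (w.1.all fun i => decide (i < D.rank)) &&
    w.2.all fun x => decide (x < D.nroots) && decide (D.IsPosRoot (N.act D w.1 x))

def rootOK (D : ChevalleyDatum) (m : Mode) (C : Cert) (r : ℕ) : Bool :=
  (C.vs.any fun v => m.nz (lam D v r)) && selfOK D m C r &&
    (List.range D.nroots).all fun s => s == r || s == D.neg r || pairOK D m C r s

variable {D : ChevalleyDatum} {F : Type*} [Field F]

/-- the character of a root on the torus -/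
noncomputable def chi (D : ChevalleyDatum) (F : Type*) [Field F] (r : ℕ) : (Fin D.rank → Fˣ) →* Fˣ :=
  MonoidHom.mk' (fun c => ∏ i : Fin D.rank, c i ^ D.cartan i r) fun a b => by
    simp [mul_zpow, Finset.prod_mul_distrib]

theorem torus_conj (hD : D ∈ dataList) {r : ℕ} (hr : r < D.nroots) (c : Fin D.rank → Fˣ) (t : F) :
    Torus.torusHom D F c * xGL hD F r t * (Torus.torusHom D F c)⁻¹ = xGL hD F r ((chi D F r c : F) * t) := by
  classical
  rw [← Finset.univ_prod_mulSingle c]
  revert t
  induction (Finset.univ : Finset (Fin D.rank)) using Finset.induction_on with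
  | empty => intro t; simp
  | insert i s hi ih =>
    intro t
    rw [Finset.prod_insert hi, map_mul, map_mul (chi D F r), mul_inv_rev, Units.val_mul, mul_assoc (chi D F r _ : F)]
    set a := Torus.torusHom D F (Pi.mulSingle i (c i))
    set b := Torus.torusHom D F (∏ j ∈ s, Pi.mulSingle j (c j))
    rw [show a * b * xGL hD F r t * (b⁻¹ * a⁻¹) = a * (b * xGL hD F r t * b⁻¹) * a⁻¹ by group, ih t]
    simp only [a]
    rw [Torus.torus_simple hD, Weight.h_conj_GL hD (Rel.simple_lt hD i.2) hr (c i).ne_zero,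
      Diag.pairing_simple hD i.2]
    congr 2
    have : chi D F r (Pi.mulSingle i (c i)) = c i ^ D.cartan i r := by
      show ∏ j : Fin D.rank, (Pi.mulSingle i (c i) : Fin D.rank → Fˣ) j ^ D.cartan j r = _
      rw [Finset.prod_eq_single i (fun j _ hj => by simp [Pi.mulSingle_eq_of_ne hj]) (by simp)]
      simp
    rw [this, Units.val_zpow_eq_zpow_val]

/-- the torus point of a vector -/
def cv (D : ChevalleyDatum) {F : Type*} [Field F] (v : List ℤ) (k : Fˣ) : Fin D.rank → Fˣ := fun i => k ^ v.getD i 0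

theorem chi_cv (v : List ℤ) (k : Fˣ) (r : ℕ) : chi D F r (cv D v k) = k ^ lam D v r := by
  show ∏ i : Fin D.rank, (k ^ v.getD i 0) ^ D.cartan i r = _
  simp only [← zpow_mul]
  unfold lam
  rw [Fin.prod_univ_eq_prod_range (fun i => k ^ (v.getD i 0 * D.cartan i r))]
  induction D.rank with
  | zero => simp
  | succ n ih => rw [Finset.prod_range_succ, ih, List.range_succ, List.map_append, List.sum_append, zpow_add]; simp

/-- what the exponent classes mean over the field -/
structure Mode.Holds (m : Mode) (F : Type*) [Field F] : Prop where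
  zr : ∀ e, m.zr e = true → ∀ k : Fˣ, k ^ e = 1
  nz : ∀ e, m.nz e = true → ∃ k : Fˣ, k ^ e ≠ 1
  okA : m.okA = true → ∃ a : F, a ≠ 0 ∧ a ≠ 1 ∧ a * (1 - a) ≠ 1
  okB : m.okB = true → ∃ a : F, a ≠ 0 ∧ a ≠ 1 ∧ a * (1 - a) ≠ 1 ∧ (∃ b, b * b = a) ∧ ∃ b, b * b = 1 - a
  two : m.two = true → (2 : F) ≠ 0

section main

variable {E : Type*} [Group E] (hD : D ∈ dataList) (π : E →* GL D.Idx F) (hrange : D.group F ≤ π.range)
  (hc : π.ker ≤ Subgroup.center E)

/-- a lift of a root element -/
noncomputable def L (r : ℕ) (t : F) : E := (hrange (xGL_mem_group hD r t)).choose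

theorem π_L (r : ℕ) (t : F) : π (L hD π hrange r t) = xGL hD F r t := (hrange (xGL_mem_group hD r t)).choose_spec

theorem torus_mem (hD : D ∈ dataList) (c : Fin D.rank → Fˣ) : Torus.torusHom D F c ∈ D.group F :=
  Basic.diagonal_le_group hD ((Torus.range_torusHom hD).le ⟨c, rfl⟩)

/-- a lift of a torus element -/
noncomputable def H (c : Fin D.rank → Fˣ) : E := (hrange (torus_mem hD c)).choose

theorem π_H (c : Fin D.rank → Fˣ) : π (H hD π hrange c) = Torus.torusHom D F c := (hrange (torus_mem hD c)).choose_spec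

variable (τc : ℕ → Fin D.rank → Fˣ) (hτc : ∀ r, r < D.nroots → chi D F r (τc r) ≠ 1)

/-- the canonical lift -/
noncomputable def Y (r : ℕ) (t : F) : E :=
  ⁅H hD π hrange (τc r), L hD π hrange r (t / ((chi D F r (τc r) : F) - 1))⁆

theorem x_mul (hD : D ∈ dataList) {r : ℕ} (hr : r < D.nroots) (t u : F) :
    xGL hD F r t * xGL hD F r u = xGL hD F r (t + u) := Rel.xGL_add hD hr t u

theorem comm_scale {r : ℕ} (hr : r < D.nroots) (c : Fin D.rank → Fˣ) (t : F) :
    ⁅Torus.torusHom D F c, xGL hD F r t⁆ = xGL hD F r (((chi D F r c : F) - 1) * t) := by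
  rw [commutatorElement_def, torus_conj hD hr, Rel.xGL_inv hD hr, x_mul hD hr]
  congr 1; ring

theorem comm_dec {p q r : ℕ} {M : ℤ} (hp : p < D.nroots) (hq : q < D.nroots) (h1 : q ≠ p) (h2 : q ≠ D.neg p)
    (hr : r < D.nroots) (hT : D.commTerms p q = [(r, M, 1, 1)]) (t u : F) :
    ⁅xGL hD F p t, xGL hD F q u⁆ = xGL hD F r ((M : F) * t * u) := by
  have h := Rel.comm_GL hD hp hq h1 h2 (-t) (-u)
  rw [ChevalleyDatum.commWord, hT, ← Rel.xGL_inv hD hp, ← Rel.xGL_inv hD hq] at h
  simp only [Rel.wordGL, List.map_cons, List.map_nil, List.prod_cons, List.prod_nil, mul_one, neg_neg, pow_one] at h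
  have e : xGL hD F r ((M : F) * t * -u) = (xGL hD F r ((M : F) * t * u))⁻¹ := by rw [Rel.xGL_inv hD hr, mul_neg]
  rw [e] at h
  rw [commutatorElement_def]
  set A := xGL hD F p t
  set B := xGL hD F q u
  set Z := xGL hD F r ((M : F) * t * u)
  calc A * B * A⁻¹ * B⁻¹ = (B⁻¹ * A⁻¹)⁻¹ * (A⁻¹ * B⁻¹) := by group
    _ = _ := by rw [h]; group

theorem x_commute {x y : ℕ} (h : comOK D x y = true) (t u : F) : Commute (xGL hD F x t) (xGL hD F y u) := by
  simp only [comOK, Bool.and_eq_true, decide_eq_true_eq, Bool.or_eq_true, beq_iff_eq, bne_iff_ne,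
    List.isEmpty_iff] at h
  obtain ⟨⟨hx, hy⟩, h⟩ := h
  by_cases e : x = y
  · subst e; show _ * _ = _ * _; rw [x_mul hD hx, x_mul hD hx, add_comm]
  · obtain ⟨h1, h2⟩ := h.resolve_left e
    have := Rel.comm_GL hD hx hy (Ne.symm e) h1 t u
    rw [ChevalleyDatum.commWord, h2] at this
    simp [Rel.wordGL] at this
    exact this.symm

include hτc in
theorem π_Y {r : ℕ} (hr : r < D.nroots) (t : F) : π (Y hD π hrange τc r t) = xGL hD F r t := by
  have h : (chi D F r (τc r) : F) - 1 ≠ 0 := sub_ne_zero.2 fun e => hτc r hr (Units.ext e)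
  rw [Y, map_commutatorElement, π_H, π_L, comm_scale hD hr, mul_div_cancel₀ _ h]

include hc in
theorem conj_Y {r : ℕ} (hr : r < D.nroots) (c : Fin D.rank → Fˣ) (t : F) :
    H hD π hrange c * Y hD π hrange τc r t * (H hD π hrange c)⁻¹ = Y hD π hrange τc r ((chi D F r c : F) * t) := by
  rw [Y, conjugate_commutatorElement]
  refine bracket_congr π hc ?_ ?_
  · rw [map_mul, map_mul, map_inv, π_H, π_H, ← map_mul, ← map_inv, ← map_mul]
    congr 1
    rw [mul_comm c, mul_inv_cancel_right]
  · rw [map_mul, map_mul, map_inv, π_H, π_L, π_L, torus_conj hD hr, mul_div_assoc]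

variable (m : Mode) (hm : m.Holds F) (C : Cert)

theorem dec_spec {d : ℕ × ℕ × ℕ} (hd : decOK D m d = true) :
    d.1 < D.nroots ∧ d.2.1 < D.nroots ∧ d.2.2 < D.nroots ∧ d.2.1 ≠ d.1 ∧ d.2.1 ≠ D.neg d.1 ∧
      ∃ M : ℤ, D.commTerms d.1 d.2.1 = [(d.2.2, M, 1, 1)] ∧
        (M = 1 ∨ M = -1 ∨ (m.two = true ∧ (M = 2 ∨ M = -2))) := by
  simp only [decOK, Bool.and_eq_true, decide_eq_true_eq, bne_iff_ne] at hd
  obtain ⟨⟨⟨⟨⟨h1, h2⟩, h3⟩, h4⟩, h5⟩, h6⟩ := hd
  refine ⟨h1, h2, h3, h4, h5, ?_⟩
  revert h6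
  split
  · rename_i c M e
    intro h6
    simp only [Bool.and_eq_true, beq_iff_eq, Bool.or_eq_true] at h6
    obtain ⟨rfl, hM⟩ := h6
    exact ⟨M, e, by tauto⟩
  · simp

include hc hm in
/-- lifts of a root element commute with lifts of anything commuting with the two constituents -/
theorem dec_commute {d : ℕ × ℕ × ℕ} (hd : decOK D m d = true) {s : E}
    (h1 : ∀ t, Commute (π s) (xGL hD F d.1 t)) (h2 : ∀ t, Commute (π s) (xGL hD F d.2.1 t)) (t : F) :
    Commute s (L hD π hrange d.2.2 t) := by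
  obtain ⟨hp, hq, hr, hne, hneg, M, hT, hM⟩ := dec_spec m hd
  have hM0 : (M : F) ≠ 0 := by
    rcases hM with rfl | rfl | ⟨h2', rfl | rfl⟩ <;> simp <;> exact hm.two h2'
  refine commute_congr π hc (commute_bracket π hc (a := L hD π hrange d.1 (t / M)) (b := L hD π hrange d.2.1 1)
    (by rw [π_L]; exact h1 _) (by rw [π_L]; exact h2 _)) rfl ?_
  rw [map_commutatorElement, π_L, π_L, π_L, comm_dec hD hp hq hne hneg hr hT, mul_one, mul_div_cancel₀ _ hM0]

include hc hm in
theorem cmt_commute {a b : ℕ} (h : cmtOK D m C a b = true) (t u : F) :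
    Commute (L hD π hrange a t) (L hD π hrange b u) := by
  simp only [cmtOK, Bool.and_eq_true, List.any_eq_true, Bool.or_eq_true, beq_iff_eq] at h
  obtain ⟨-, d, -, hd, (⟨⟨rfl, c1⟩, c2⟩ | ⟨⟨rfl, c1⟩, c2⟩)⟩ := h
  · exact (dec_commute hD π hrange hc m hm hd (fun x => by rw [π_L]; exact (x_commute hD c1 x u).symm)
      (fun x => by rw [π_L]; exact (x_commute hD c2 x u).symm) t).symm
  · exact dec_commute hD π hrange hc m hm hd (fun x => by rw [π_L]; exact x_commute hD c1 t x)
      (fun x => by rw [π_L]; exact x_commute hD c2 t x) u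

include hc hm in
theorem self_commute {r : ℕ} (hr : r < D.nroots) (h : selfOK D m C r = true) (t u : F) :
    Commute (L hD π hrange r t) (L hD π hrange r u) := by
  simp only [selfOK, Bool.or_eq_true, Bool.and_eq_true, List.any_eq_true, beq_iff_eq] at h
  have scale : ∀ (v : List ℤ) (k : Fˣ) (t u : F), ⁅L hD π hrange r (((k ^ lam D v r : Fˣ) : F) * t),
      L hD π hrange r (((k ^ lam D v r : Fˣ) : F) * u)⁆ = ⁅L hD π hrange r t, L hD π hrange r u⁆ := by
    intro v k t u
    set g := H hD π hrange (cv D v k)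
    have hz : ⁅L hD π hrange r t, L hD π hrange r u⁆ ∈ Subgroup.center E := hc (by
      rw [MonoidHom.mem_ker, map_commutatorElement, π_L, π_L, commutatorElement_eq_one_iff_commute]
      show _ * _ = _ * _
      rw [x_mul hD hr, x_mul hD hr, add_comm])
    have e : g * ⁅L hD π hrange r t, L hD π hrange r u⁆ * g⁻¹ = ⁅L hD π hrange r t, L hD π hrange r u⁆ := by
      rw [Subgroup.mem_center_iff.1 hz, mul_inv_cancel_right]
    rw [conjugate_commutatorElement] at e
    rw [← e]
    refine bracket_congr π hc ?_ ?_ <;>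
      · rw [map_mul, map_mul, map_inv, π_H, π_L, π_L, torus_conj hD hr, chi_cv]
  have fin : ∀ a : F, a ≠ 0 → a ≠ 1 → a * (1 - a) ≠ 1 →
      (∀ k : F, k = a ∨ k = 1 - a → ∀ t u, ⁅L hD π hrange r (k * t), L hD π hrange r (k * u)⁆ =
        ⁅L hD π hrange r t, L hD π hrange r u⁆) →
      ⁅L hD π hrange r t, L hD π hrange r u⁆ = 1 := by
    intro a ha0 ha1 ha2 hk
    set b : F → F → E := fun t u => ⁅L hD π hrange r t, L hD π hrange r u⁆ with hb
    have hcz : ∀ t u g, g * b t u = b t u * g := fun t u => Subgroup.mem_center_iff.1 (hc (by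
      rw [MonoidHom.mem_ker, hb, map_commutatorElement, π_L, π_L, commutatorElement_eq_one_iff_commute]
      show _ * _ = _ * _
      rw [x_mul hD hr, x_mul hD hr, add_comm]))
    have addl : ∀ t t' u, b (t + t') u = b t' u * b t u := fun t t' u => by
      show ⁅_, _⁆ = _
      rw [bracket_congr π hc (p' := L hD π hrange r t * L hD π hrange r t') (by rw [map_mul, π_L, π_L, π_L, x_mul hD hr]) rfl,
        show ⁅L hD π hrange r t * L hD π hrange r t', L hD π hrange r u⁆ =
          L hD π hrange r t * b t' u * (L hD π hrange r t)⁻¹ * b t u by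
          simp only [hb, commutatorElement_def]; group, hcz t' u (L hD π hrange r t), mul_inv_cancel_right]
    have addr : ∀ t u u', b t (u + u') = b t u * b t u' := fun t u u' => by
      show ⁅_, _⁆ = _
      rw [bracket_congr π hc rfl (q' := L hD π hrange r u * L hD π hrange r u') (by rw [map_mul, π_L, π_L, π_L, x_mul hD hr]),
        show ⁅L hD π hrange r t, L hD π hrange r u * L hD π hrange r u'⁆ =
          b t u * (L hD π hrange r u * b t u' * (L hD π hrange r u)⁻¹) by
          simp only [hb, commutatorElement_def]; group, hcz, mul_inv_cancel_right]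
    have ha : (1 : F) - a ≠ 0 := sub_ne_zero.2 (Ne.symm ha1)
    have key : ∀ x y, b x y = b x (y / (a * (1 - a))) := fun x y => by
      calc b x y = b (a * x + (1 - a) * x) y := by rw [show a * x + (1 - a) * x = x by ring]
        _ = b ((1 - a) * x) ((1 - a) * (y / (1 - a))) * b (a * x) (a * (y / a)) := by
          rw [addl, mul_div_cancel₀ _ ha, mul_div_cancel₀ _ ha0]
        _ = b x (y / (1 - a)) * b x (y / a) := by rw [hb]; simp only; rw [hk _ (Or.inr rfl), hk _ (Or.inl rfl)]
        _ = b x (y / (a * (1 - a))) := by rw [← addr]; congr 1; field_simp; ring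
    have h1 : ∀ x y, b x (y / (a * (1 - a)) - y) = 1 := fun x y => by
      have := addr x (y / (a * (1 - a)) - y) y
      rw [sub_add_cancel, ← key] at this
      exact mul_eq_right.1 this.symm
    have hd : 1 / (a * (1 - a)) - 1 ≠ 0 := by
      intro e; apply ha2; field_simp at e; linear_combination -e
    have := h1 t (u / (1 / (a * (1 - a)) - 1))
    rwa [show u / (1 / (a * (1 - a)) - 1) / (a * (1 - a)) - u / (1 / (a * (1 - a)) - 1) = u by
      rw [div_sub' (mul_ne_zero ha0 ha), div_eq_mul_inv, div_eq_mul_inv]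
      field_simp] at this
  rcases h with (⟨hA, v, -, hv⟩ | ⟨hB, v, -, hv⟩) | ⟨d, -, ⟨⟨hd, hdr⟩, c1⟩, c2⟩
  · obtain ⟨a, a0, a1, a2⟩ := hm.okA hA
    rw [← commutatorElement_eq_one_iff_commute]
    refine fin a a0 a1 a2 fun k hk x y => ?_
    have hk0 : k ≠ 0 := by rcases hk with rfl | rfl; exacts [a0, sub_ne_zero.2 (Ne.symm a1)]
    simpa [hv] using scale v (Units.mk0 k hk0) x y
  · obtain ⟨a, a0, a1, a2, ⟨b₁, hb₁⟩, b₂, hb₂⟩ := hm.okB hB
    rw [← commutatorElement_eq_one_iff_commute]
    refine fin a a0 a1 a2 fun k hk x y => ?_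
    obtain ⟨c, hc'⟩ : ∃ c, c * c = k := by rcases hk with rfl | rfl; exacts [⟨_, hb₁⟩, ⟨_, hb₂⟩]
    have hc0 : c ≠ 0 := by
      rintro rfl
      rcases hk with rfl | rfl
      · simp at hc'; exact a0 hc'.symm
      · simp at hc'; exact a1 (by linear_combination hc')
    simpa [hv, zpow_ofNat, pow_two, hc'] using scale v (Units.mk0 c hc0) x y
  · subst hdr
    exact dec_commute hD π hrange hc m hm hd (fun x => by rw [π_L]; exact x_commute hD c1 t x)
      (fun x => by rw [π_L]; exact x_commute hD c2 t x) u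

variable (hroot : ∀ r, r < D.nroots → rootOK D m C r = true) (hws : wsOK D C = true)

include hroot in
theorem root_spec {r : ℕ} (hr : r < D.nroots) : (∃ v ∈ C.vs, m.nz (lam D v r) = true) ∧ selfOK D m C r = true ∧
    ∀ s < D.nroots, s ≠ r → s ≠ D.neg r → pairOK D m C r s = true := by
  have h := hroot r hr
  simp only [rootOK, Bool.and_eq_true, List.any_eq_true, List.all_eq_true, List.mem_range, Bool.or_eq_true,
    beq_iff_eq] at h
  exact ⟨h.1.1, h.1.2, fun s hs h1 h2 => (h.2 s hs).resolve_left (by tauto)⟩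

include hc hm hroot hτc in
theorem Y_add {r : ℕ} (hr : r < D.nroots) (t u : F) :
    Y hD π hrange τc r t * Y hD π hrange τc r u = Y hD π hrange τc r (t + u) := by
  set g := H hD π hrange (τc r)
  set d := (chi D F r (τc r) : F) - 1
  set a := L hD π hrange r (t / d)
  set b := L hD π hrange r (u / d)
  have e : Y hD π hrange τc r (t + u) = ⁅g, a * b⁆ := bracket_congr π hc rfl (by
    rw [map_mul, π_L, π_L, π_L, x_mul hD hr, add_div])
  have hcm : Commute a ⁅g, b⁆ := commute_congr π hc
    (self_commute hD π hrange hc m hm C hr (root_spec m C hroot hr).2.1 (t / d) u) rfl (by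
      rw [π_L]; exact π_Y hD π hrange τc hτc hr u)
  rw [e, show ⁅g, a * b⁆ = ⁅g, a⁆ * (a * ⁅g, b⁆ * a⁻¹) by simp only [commutatorElement_def]; group,
    hcm.eq, mul_inv_cancel_right]
  rfl

include hc hm hroot hτc in
theorem Y_zero {r : ℕ} (hr : r < D.nroots) : Y hD π hrange τc r 0 = 1 := by
  have := Y_add hD π hrange hc τc hτc m hm C hroot hr 0 0
  rw [add_zero] at this
  exact mul_eq_left.1 this

include hc hm hroot hτc in
theorem Y_inv {r : ℕ} (hr : r < D.nroots) (t : F) : (Y hD π hrange τc r t)⁻¹ = Y hD π hrange τc r (-t) := by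
  rw [inv_eq_iff_mul_eq_one, Y_add hD π hrange hc τc hτc m hm C hroot hr, add_neg_cancel,
    Y_zero hD π hrange hc τc hτc m hm C hroot hr]

/-- the subgroup generated by lifts -/
noncomputable abbrev gy (l : List ℕ) : Subgroup E :=
  Subgroup.closure {g | ∃ r t, r ∈ l ∧ g = Y hD π hrange τc r t}

theorem mem_gy {l : List ℕ} {r : ℕ} (hr : r ∈ l) (t : F) : Y hD π hrange τc r t ∈ gy hD π hrange τc l :=
  Subgroup.subset_closure ⟨r, t, hr, rfl⟩

include hc in
theorem H_norm {l : List ℕ} (hl : ∀ r ∈ l, r < D.nroots) (c : Fin D.rank → Fˣ) {g : E}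
    (hg : g ∈ gy hD π hrange τc l) : H hD π hrange c * g * (H hD π hrange c)⁻¹ ∈ gy hD π hrange τc l := by
  have h : gy hD π hrange τc l ≤ (gy hD π hrange τc l).comap (MulAut.conj (H hD π hrange c)).toMonoidHom := by
    refine (Subgroup.closure_le _).2 ?_
    rintro _ ⟨r, t, hr, rfl⟩
    rw [SetLike.mem_coe, Subgroup.mem_comap, MulEquiv.coe_toMonoidHom, MulAut.conj_apply,
      conj_Y hD π hrange hc τc (hl r hr)]
    exact mem_gy hD π hrange τc hr _
  exact h hg

include hc hm hroot hτc in
theorem tPair_conj {r s : ℕ} (hr : r < D.nroots) (hs : s < D.nroots) (h : tPair D m C r s = true) (t u : F) :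
    Y hD π hrange τc r t * Y hD π hrange τc s u * (Y hD π hrange τc r t)⁻¹ ∈ gy hD π hrange τc (psi D r s) := by
  simp only [tPair, Bool.and_eq_true, decide_eq_true_eq, List.any_eq_true] at h
  obtain ⟨⟨hne, hneg⟩, v, -, hz, hn⟩ := h
  obtain ⟨k, hk⟩ := hm.nz _ hn
  set c := cv D v k
  set g := H hD π hrange c
  have h1 : chi D F r c = 1 := by rw [chi_cv]; exact hm.zr _ hz k
  have h2 : (chi D F s c : F) - 1 ≠ 0 := sub_ne_zero.2 fun e => hk (by rw [← chi_cv]; exact Units.ext e)
  set u' := u / ((chi D F s c : F) - 1)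
  have hlt : ∀ x ∈ psi D r s, x < D.nroots := fun x hx => by
    rcases List.mem_cons.1 hx with rfl | hx
    · exact hs
    · obtain ⟨q, hq, rfl⟩ := List.mem_map.1 hx
      exact Orbit.commTerms_lt (Rel.tab_valid hD) hr hs hq
  have es : Y hD π hrange τc s u = ⁅g, Y hD π hrange τc s u'⁆ := by
    rw [commutatorElement_def, conj_Y hD π hrange hc τc hs, Y_inv hD π hrange hc τc hτc m hm C hroot hs,
      Y_add hD π hrange hc τc hτc m hm C hroot hs,
      show (chi D F s c : F) * u' + -u' = u by simp only [u']; field_simp; ring]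
  have er : g * Y hD π hrange τc r t * g⁻¹ = Y hD π hrange τc r t := by
    rw [conj_Y hD π hrange hc τc hr, h1, Units.val_one, one_mul]
  set A := Y hD π hrange τc r t
  set w := Y hD π hrange τc s u' * ((D.commWord F r s (-t) u').map fun p => Y hD π hrange τc p.1 p.2).prod
  have hw : w ∈ gy hD π hrange τc (psi D r s) := by
    refine mul_mem (mem_gy hD π hrange τc List.mem_cons_self _) (Subgroup.list_prod_mem _ fun y hy => ?_)
    obtain ⟨p, hp, rfl⟩ := List.mem_map.1 hy
    obtain ⟨q, hq, rfl⟩ := List.mem_map.1 hp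
    exact mem_gy hD π hrange τc (List.mem_cons_of_mem s (List.mem_map.2 ⟨q, hq, rfl⟩)) _
  have e : A * Y hD π hrange τc s u * A⁻¹ = ⁅g, w⁆ := by
    rw [es, conjugate_commutatorElement]
    refine bracket_congr π hc ?_ ?_
    · rw [← mul_inv_eq_iff_eq_mul.1 er, mul_inv_cancel_right]
    · have hπp : π (((D.commWord F r s (-t) u').map fun p => Y hD π hrange τc p.1 p.2).prod) =
          Rel.wordGL hD (D.commWord F r s (-t) u') := by
        rw [map_list_prod, List.map_map]
        unfold Rel.wordGL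
        congr 1
        refine List.map_congr_left fun p hp => π_Y hD π hrange τc hτc ?_ p.2
        obtain ⟨q, hq, rfl⟩ := List.mem_map.1 hp
        exact Orbit.commTerms_lt (Rel.tab_valid hD) hr hs hq
      simp only [w, A, map_mul, map_inv, π_Y hD π hrange τc hτc hr, π_Y hD π hrange τc hτc hs, hπp]
      have := Rel.comm_GL hD hr hs hne hneg (-t) u'
      rw [← Rel.xGL_inv hD hr] at this
      rw [mul_assoc, this]
      group
  rw [e, commutatorElement_def]
  exact mul_mem (H_norm hD π hrange hc τc hlt c hw) (inv_mem hw)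

include hc hm hτc hroot in
theorem cmt_Y {a b : ℕ} (ha : a < D.nroots) (hb : b < D.nroots) (h : cmtAny D m C a b = true) (t u : F) :
    Commute (Y hD π hrange τc a t) (Y hD π hrange τc b u) := by
  simp only [cmtAny, Bool.or_eq_true] at h
  rcases h with h | h
  · have key : ∀ {a b : ℕ}, a < D.nroots → b < D.nroots → D.commTerms a b = [] → tPair D m C a b = true →
        ∀ t u : F, Commute (Y hD π hrange τc a t) (Y hD π hrange τc b u) := by
      intro a b ha hb hT h t u
      have hmem := tPair_conj hD π hrange hc τc hτc m hm C hroot ha hb h t u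
      have hsp : gy hD π hrange τc (psi D a b) ≤
          ({ carrier := {g | ∃ x, g = Y hD π hrange τc b x}
             one_mem' := ⟨0, (Y_zero hD π hrange hc τc hτc m hm C hroot hb).symm⟩
             mul_mem' := by
               rintro _ _ ⟨x, rfl⟩ ⟨y, rfl⟩
               exact ⟨x + y, Y_add hD π hrange hc τc hτc m hm C hroot hb x y⟩
             inv_mem' := by
               rintro _ ⟨x, rfl⟩
               exact ⟨-x, Y_inv hD π hrange hc τc hτc m hm C hroot hb x⟩ } : Subgroup E) := by
        refine (Subgroup.closure_le _).2 ?_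
        rintro _ ⟨r, x, hr, rfl⟩
        simp only [psi, hT, List.map_nil, List.mem_singleton] at hr
        subst hr
        exact ⟨x, rfl⟩
      obtain ⟨x, hx⟩ := hsp hmem
      have hx2 : x = u := by
        have e := congrArg π hx
        simp only [map_mul, map_inv, π_Y hD π hrange τc hτc ha, π_Y hD π hrange τc hτc hb] at e
        have hab : comOK D a b = true := by
          simp only [tPair, Bool.and_eq_true, decide_eq_true_eq] at h
          simp [comOK, ha, hb, h.1.2, hT]
        rw [(x_commute hD hab t u).eq, mul_inv_cancel_right] at e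
        have e2 : xGL hD F b (x + -u) = 1 := by rw [← x_mul hD hb, ← e, ← Rel.xGL_inv hD hb, mul_inv_cancel]
        linear_combination (XOne.x_eq_one_iff hD hb (x + -u)).1 (by rw [← xGL_val hD, e2]; rfl)
      rw [hx2] at hx
      exact mul_inv_eq_iff_eq_mul.1 hx
    simp only [cmtT, Bool.and_eq_true, Bool.or_eq_true, List.isEmpty_iff] at h
    rcases h.2 with h' | h'
    · exact key ha hb h.1.1 h' t u
    · exact (key hb ha h.1.2 h' u t).symm
  · exact commute_congr π hc (cmt_commute hD π hrange hc m hm C h t u)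
      (by rw [π_L]; exact π_Y hD π hrange τc hτc ha t) (by rw [π_L]; exact π_Y hD π hrange τc hτc hb u)

theorem indep (hD : D ∈ dataList) {w : List ℕ} (hw : ∀ i ∈ w, i < D.rank) {a : ℕ} {l : List ℕ}
    (hl : ∀ x ∈ a :: l, x < D.nroots ∧ D.IsPosRoot (N.act D w x)) (hal : a ∉ l) (haa : D.commTerms a a = [])
    (hcl : ∀ x ∈ l, ∀ y ∈ l, ∀ c ∈ D.commTerms x y, c.1 ∈ l) {t : F}
    (ht : xGL hD F a t ∈ RootGen.gen D F fun x => x ∈ l) : t = 0 := by
  classical
  have hrev : ∀ i ∈ w.reverse, i < D.rank := fun i hi => hw i (List.mem_reverse.1 hi)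
  set a' := N.act D w a
  have closed : ∀ l' : List ℕ, (∀ x ∈ l', x ∈ a :: l) → (∀ x ∈ l', ∀ y ∈ l', ∀ c ∈ D.commTerms x y, c.1 ∈ l') →
      Canonical.Closed D (fun x => ∃ y ∈ l', N.act D w y = x) := fun l' hsub hcl' => by
    refine ⟨fun r ⟨y, hy, e⟩ => e ▸ (hl y (hsub y hy)).2, ?_⟩
    rintro _ _ ⟨x, hx, rfl⟩ ⟨y, hy, rfl⟩ c hc
    obtain ⟨c', hc', e⟩ := Abstract.commTerms_act hD hrev (N.act_lt hD hw (hl x (hsub x hx)).1)
      (N.act_lt hD hw (hl y (hsub y hy)).1) hc
    rw [Weyl.act_reverse_act hD hw (hl x (hsub x hx)).1, Weyl.act_reverse_act hD hw (hl y (hsub y hy)).1] at hc'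
    refine ⟨c'.1, hcl' x hx y hy c' hc', ?_⟩
    rw [e, Weyl.act_act_reverse hD hw]
    exact Orbit.commTerms_lt (Rel.tab_valid hD) (N.act_lt hD hw (hl x (hsub x hx)).1)
      (N.act_lt hD hw (hl y (hsub y hy)).1) hc
  obtain ⟨η, hη, he⟩ := N.nW_conj (F := F) hD hw (hl a List.mem_cons_self).1
  have hmem : xGL hD F a' (η * t) ∈ RootGen.gen D F fun x => ∃ y ∈ l, N.act D w y = x := by
    have h : (RootGen.gen D F fun x => x ∈ l) ≤
        (RootGen.gen D F fun x => ∃ y ∈ l, N.act D w y = x).comap (MulAut.conj (N.nW hD F w)).toMonoidHom :=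
      RootGen.gen_le hD fun x hx u => by
        obtain ⟨η', -, he'⟩ := N.nW_conj (F := F) hD hw (hl x (List.mem_cons_of_mem a hx)).1
        rw [Subgroup.mem_comap, MulEquiv.coe_toMonoidHom, MulAut.conj_apply, he']
        exact RootGen.xGL_mem_gen hD ⟨x, hx, rfl⟩ _
    have := h ht
    rw [Subgroup.mem_comap, MulEquiv.coe_toMonoidHom, MulAut.conj_apply, he] at this
    exact this
  have hc1 := closed [a] (fun x hx => by simp at hx; simp [hx]) (fun x hx y hy c hc => by
    simp at hx hy; subst hx; subst hy; simp [haa] at hc)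
  have hc2 := closed l (fun x hx => List.mem_cons_of_mem a hx) hcl
  obtain ⟨f, hf, hfe⟩ := (Canonical.mem_gen_iff hD hc2).1 hmem
  obtain ⟨f₁, hf₁, hfe₁⟩ := (Canonical.mem_gen_iff hD hc1).1
    (RootGen.xGL_mem_gen hD (show ∃ y ∈ [a], N.act D w y = a' from ⟨a, by simp, rfl⟩) ((η : F) * t))
  obtain ⟨f₀, -, hu⟩ := U.exists_unique_prod hD (U.prodL_mem_pos hD f)
  have e1 : f = f₁ := (hu f ⟨fun r hr => hf r fun h => hr (hc2.pos r h), rfl⟩).trans
    (hu f₁ ⟨fun r hr => hf₁ r fun h => hr (hc1.pos r h), by rw [← hfe, ← hfe₁]⟩).symm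
  have e2 : ∀ r, f₁ r = 0 := fun r => by
    by_cases h : ∃ y ∈ [a], N.act D w y = r
    · obtain ⟨y, hy, rfl⟩ := h
      simp at hy; subst hy
      rw [← e1]
      refine hf _ ?_
      rintro ⟨z, hz, e⟩
      exact hal (Weyl.act_inj hD hw (hl z (List.mem_cons_of_mem y hz)).1 (hl y List.mem_cons_self).1 e ▸ hz)
    · exact hf₁ r h
  have e3 : U.prodL hD f₁ D.posRoots = 1 := by
    rw [show f₁ = fun _ => 0 from funext e2]
    refine List.prod_eq_one fun g hg => ?_
    obtain ⟨r, -, rfl⟩ := List.mem_map.1 hg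
    exact xGL_zero _ _
  rw [e3] at hfe₁
  have := (XOne.x_eq_one_iff hD (N.act_lt hD hw (hl a List.mem_cons_self).1) (η * t)).1
    (by rw [← xGL_val hD, hfe₁]; rfl)
  rcases hη with rfl | rfl <;> simpa using this

include hc hm hroot hws hτc in
theorem inj_gy {l : List ℕ} (h : injOK D m C l = true) {g : E} (hg : g ∈ gy hD π hrange τc l) (h1 : π g = 1) :
    g = 1 := by
  simp only [injOK, Bool.and_eq_true, List.any_eq_true, List.all_eq_true, List.contains_iff_mem] at h
  obtain ⟨hl, w, hwC, hw⟩ := h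
  simp only [wsOK, List.all_eq_true, Bool.and_eq_true, decide_eq_true_eq] at hws
  obtain ⟨hwr, hwp⟩ := hws w hwC
  have hall : ∀ x ∈ l, x < D.nroots ∧ D.IsPosRoot (N.act D w.1 x) := fun x hx => hwp x (hw x hx)
  clear hw
  induction l generalizing g with
  | nil =>
    have : g ∈ (⊥ : Subgroup E) := (Subgroup.closure_le (⊥ : Subgroup E)).2 (by rintro _ ⟨r, t, hr, -⟩; simp at hr) hg
    exact Subgroup.mem_bot.1 this
  | cons a l ih =>
    simp only [injList, Bool.and_eq_true, decide_eq_true_eq, Bool.not_eq_true', List.isEmpty_iff, List.all_eq_true,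
      Bool.or_eq_true, List.contains_iff_mem, ← Bool.not_eq_true] at hl
    obtain ⟨⟨⟨⟨⟨ha, hal⟩, haa⟩, hhead⟩, hcl⟩, hrec⟩ := hl
    let K : Subgroup E :=
      { carrier := {g | ∃ t, g = Y hD π hrange τc a t}
        one_mem' := ⟨0, (Y_zero hD π hrange hc τc hτc m hm C hroot ha).symm⟩
        mul_mem' := by
          rintro _ _ ⟨t, rfl⟩ ⟨u, rfl⟩
          exact ⟨t + u, Y_add hD π hrange hc τc hτc m hm C hroot ha t u⟩
        inv_mem' := by
          rintro _ ⟨t, rfl⟩
          exact ⟨-t, Y_inv hD π hrange hc τc hτc m hm C hroot ha t⟩ }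
    have hnorm : K ≤ Subgroup.normalizer (gy hD π hrange τc l : Set E) := by
      refine BH.normalizer_closure_le ?_
      rintro _ ⟨t, rfl⟩ _ ⟨c, u, hcl', rfl⟩
      have hclt := (hall c (List.mem_cons_of_mem a hcl')).1
      rcases hhead c hcl' with ⟨hT, hsub⟩ | hC
      · have := tPair_conj hD π hrange hc τc hτc m hm C hroot ha hclt hT t u
        exact Subgroup.closure_mono (by rintro _ ⟨r, x, hr, rfl⟩; exact ⟨r, x, hsub r hr, rfl⟩) this
      · rw [(cmt_Y hD π hrange hc τc hτc m hm C hroot ha hclt hC t u).eq, mul_inv_cancel_right]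
        exact mem_gy hD π hrange τc hcl' u
    have hle : gy hD π hrange τc (a :: l) ≤ K ⊔ gy hD π hrange τc l := (Subgroup.closure_le _).2 (by
      rintro _ ⟨r, t, hr, rfl⟩
      rcases List.mem_cons.1 hr with rfl | hr
      · exact Subgroup.mem_sup_left ⟨t, rfl⟩
      · exact Subgroup.mem_sup_right (mem_gy hD π hrange τc hr t))
    have hg' := hle hg
    rw [← SetLike.mem_coe, Subgroup.coe_mul_of_left_le_normalizer_right _ _ hnorm] at hg'
    obtain ⟨_, ⟨t, rfl⟩, v, hv, rfl⟩ := Set.mem_mul.1 hg'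
    have hπv : π v ∈ RootGen.gen D F fun x => x ∈ l := by
      have h : gy hD π hrange τc l ≤ (RootGen.gen D F fun x => x ∈ l).comap π := (Subgroup.closure_le _).2 (by
        rintro _ ⟨r, x, hr, rfl⟩
        rw [SetLike.mem_coe, Subgroup.mem_comap, π_Y hD π hrange τc hτc (hall r (List.mem_cons_of_mem a hr)).1]
        exact RootGen.xGL_mem_gen hD hr _)
      exact h hv
    rw [map_mul, π_Y hD π hrange τc hτc ha] at h1
    have ht : t = 0 := indep hD hwr hall hal haa (fun x hx y hy c hc => hcl x hx y hy c hc)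
      (by rw [eq_inv_of_mul_eq_one_left h1]; exact inv_mem hπv)
    subst ht
    rw [Y_zero hD π hrange hc τc hτc m hm C hroot ha, one_mul]
    rw [xGL_zero, one_mul] at h1
    exact ih hv h1 hrec fun x hx => hall x (List.mem_cons_of_mem a hx)

end main

/-- the universal property on generators -/
theorem exists_lift {E : Type*} [Group E] (hD : D ∈ dataList) (π : E →* GL D.Idx F) (hrange : D.group F ≤ π.range)
    (hc : π.ker ≤ Subgroup.center E) (m : Mode) (hm : m.Holds F) (C : Cert)
    (hroot : ∀ r, r < D.nroots → rootOK D m C r = true) (hws : wsOK D C = true) :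
    ∃ τ : D.SteinbergCover F →* E, ∀ r, r < D.nroots → ∀ t : F, π (τ (D.scGen F r t)) = xGL hD F r t := by
  classical
  have hex : ∀ r, ∃ c : Fin D.rank → Fˣ, r < D.nroots → chi D F r c ≠ 1 := fun r => by
    by_cases hr : r < D.nroots
    · obtain ⟨v, -, hv⟩ := (root_spec m C hroot hr).1
      obtain ⟨k, hk⟩ := hm.nz _ hv
      exact ⟨cv D v k, fun _ => by rw [chi_cv]; exact hk⟩
    · exact ⟨1, fun h => absurd h hr⟩
  choose τc hτc using hex
  let f : Fin D.nroots × F → E := fun q => Y hD π hrange τc q.1 q.2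
  have hf : ∀ r, r < D.nroots → ∀ t : F, FreeGroup.lift f (D.stX r t) = Y hD π hrange τc r t := fun r hr t => by
    simp [ChevalleyDatum.stX, hr, f]
  have hrels : ∀ x ∈ D.steinbergRelsAB F, FreeGroup.lift f x = 1 := by
    rintro x (⟨r, t, u, hr, rfl⟩ | ⟨r, s, t, u, hr, hs, h1, h2, rfl⟩)
    · rw [map_mul, map_mul, map_inv, hf r hr, hf r hr, hf r hr,
        Y_add hD π hrange hc τc hτc m hm C hroot hr, mul_inv_cancel]
    · have hwl : ∀ p ∈ D.commWord F r s t u, p.1 < D.nroots := fun p hp => by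
        obtain ⟨c, hc, rfl⟩ := List.mem_map.1 hp
        exact Orbit.commTerms_lt (Rel.tab_valid hD) hr hs hc
      set W := ((D.commWord F r s t u).map fun p => Y hD π hrange τc p.1 p.2).prod
      have hW : FreeGroup.lift f (D.stWord (D.commWord F r s t u)) = W := by
        rw [ChevalleyDatum.stWord, map_list_prod, List.map_map]
        congr 1
        exact List.map_congr_left fun p hp => hf p.1 (hwl p hp) p.2
      have hπW : π W = Rel.wordGL hD (D.commWord F r s t u) := by
        rw [map_list_prod, List.map_map]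
        unfold Rel.wordGL
        congr 1
        exact List.map_congr_left fun p hp => π_Y hD π hrange τc hτc (hwl p hp) p.2
      simp only [map_mul, map_inv, hf r hr, hf s hs, hW]
      set A := Y hD π hrange τc r t
      set B := Y hD π hrange τc s u
      have hπ1 : π (B⁻¹ * A⁻¹ * B * A * W⁻¹) = 1 := by
        simp only [A, B, map_mul, map_inv, π_Y hD π hrange τc hτc hr, π_Y hD π hrange τc hτc hs, hπW]
        rw [mul_assoc _ (xGL hD F s u), Rel.comm_GL hD hr hs h1 h2]
        group
      have hWm : ∀ l : List ℕ, (∀ c ∈ D.commTerms r s, c.1 ∈ l) → W ∈ gy hD π hrange τc l := fun l hl => by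
        refine Subgroup.list_prod_mem _ fun y hy => ?_
        obtain ⟨p, hp, rfl⟩ := List.mem_map.1 hy
        obtain ⟨c, hc, rfl⟩ := List.mem_map.1 hp
        exact mem_gy hD π hrange τc (hl c hc) _
      have hp := (root_spec m C hroot hr).2.2 s hs h1 h2
      simp only [pairOK, Bool.or_eq_true, Bool.and_eq_true, List.all_eq_true, List.contains_iff_mem] at hp
      rcases hp with (⟨hT, hI⟩ | ⟨⟨hT, hI⟩, hsub⟩) | hC
      · refine inj_gy hD π hrange hc τc hτc m hm C hroot hws hI (mul_mem ?_ (inv_mem (hWm _ fun c hc =>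
          List.mem_cons_of_mem s (List.mem_map.2 ⟨c, hc, rfl⟩)))) hπ1
        rw [mul_assoc (B⁻¹ * A⁻¹), mul_assoc B⁻¹]
        refine mul_mem (inv_mem (mem_gy hD π hrange τc List.mem_cons_self u)) ?_
        have := tPair_conj hD π hrange hc τc hτc m hm C hroot hr hs hT (-t) u
        rwa [← Y_inv hD π hrange hc τc hτc m hm C hroot hr, inv_inv, mul_assoc] at this
      · refine inj_gy hD π hrange hc τc hτc m hm C hroot hws hI (mul_mem ?_ (inv_mem (hWm _ hsub))) hπ1
        refine mul_mem ?_ (mem_gy hD π hrange τc List.mem_cons_self t)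
        have := tPair_conj hD π hrange hc τc hτc m hm C hroot hs hr hT (-u) (-t)
        rwa [← Y_inv hD π hrange hc τc hτc m hm C hroot hs, ← Y_inv hD π hrange hc τc hτc m hm C hroot hr,
          inv_inv] at this
      · have hT : D.commTerms r s = [] := by
          simp only [cmtAny, cmtT, cmtOK, Bool.or_eq_true, Bool.and_eq_true, List.isEmpty_iff] at hC
          exact hC.elim (fun h => h.1.1) (fun h => h.1.2)
        have hW1 : W = 1 := by simp [W, ChevalleyDatum.commWord, hT]
        have hcm : Commute A B := cmt_Y hD π hrange hc τc hτc m hm C hroot hr hs hC t u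
        rw [hW1, inv_one, mul_one, mul_assoc _ B, ← hcm.eq]
        group
  refine ⟨PresentedGroup.toGroup hrels, fun r hr t => ?_⟩
  have : PresentedGroup.toGroup hrels (D.scGen F r t) = Y hD π hrange τc r t := by
    simp only [ChevalleyDatum.scGen, ChevalleyDatum.stX, hr, dite_true]
    exact PresentedGroup.toGroup.of hrels
  rw [this, π_Y hD π hrange τc hτc hr]

end CfsgLib.Chev.Univ.TorusLift
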