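import Cfsg.Agent.Lib.Chev.Univ.Universal
import Cfsg.Agent.Lib.Chev.Univ.R3
import Cfsg.Prelude.Def_KGroupFacts

/-! Chevalley groups with trivial Schur multiplier. -/
set_option autoImplicit false
set_option maxRecDepth 100000
open Cfsg.Lie
open scoped Matrix MatrixGroups commutatorElement

namespace CfsgLib.Chev.Univ

open CfsgLib.Chev CfsgLib.Chev.Checks CfsgLib.Chev.Basic CfsgLib.Chev.Abstract

universe u

theorem multiplier_trivial {D : ChevalleyDatum} (hD : D ∈ dataList) {F : Type u} [Field F] [Finite F]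
    (hT : Function.Injective (Torus.torusHom D F))
    (hperf : commutator (D.SteinbergCover F) = ⊤)
    (hvec : ∀ i < D.rank, ∃ v : List ℤ,
      ((List.range D.rank).map fun j => v.getD j 0 * D.cartan j (D.simple i)).sum = -1)
    (hsplit : ∀ (Γ : Type u) [Group Γ] (π : Γ →* GL D.Idx F), π.range = D.group F → π.ker ≤ Subgroup.center Γ →
      ∃ τ : D.SteinbergCover F →* Γ, ∀ r, r < D.nroots → ∀ t : F, π (τ (D.scGen F r t)) = xGL hD F r t) :
    Cfsg.HasCyclicSchurMultiplier ↥(D.group F) 1 := by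
  classical
  let S := sys hD (R := D.steinbergRelsAB F) subset_rfl (canon hD relsAB_subset) fun _ hr t => canon_X hD _ hr t
  have hgen : S.Gen := sys_gen _ _ _ _
  have hker : S.θ.ker = ⊥ := S.ker_trivial hgen (fun i hi t u ht hu => by
    obtain ⟨v, hv⟩ := hvec i hi
    exact r3_vec S hgen hi v hv ht hu) hT
  have : Subsingleton (Multiplicative (ZMod 1)) := inferInstanceAs (Subsingleton (ZMod 1))
  have : Unique (Multiplicative (ZMod 1)) := uniqueOfSubsingleton 1
  have : Finite ↥(D.group F) := inferInstance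
  have hid : (MonoidHom.id ↥(D.group F)).ker = ⊥ := MonoidHom.ker_id
  refine ⟨⟨↥(D.group F), inferInstance, inferInstance, MonoidHom.id _,
    ⟨Function.surjective_id, hid ▸ bot_le, hid ▸ bot_le⟩, ⟨?_⟩⟩, fun Γ _ _ σ hσ => ?_⟩
  · have : Subsingleton (MonoidHom.id ↥(D.group F)).ker := by rw [hid]; infer_instance
    have : Unique (MonoidHom.id ↥(D.group F)).ker := uniqueOfSubsingleton 1
    exact MulEquiv.ofUnique
  obtain ⟨hsurj, hc, hder⟩ := hσ
  let π : Γ →* GL D.Idx F := (D.group F).subtype.comp σ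
  have hπk : π.ker = σ.ker := by
    ext x
    simp [π, MonoidHom.mem_ker]
  obtain ⟨τ, hτ⟩ := hsplit Γ π
    (le_antisymm (by rintro _ ⟨x, rfl⟩; exact (σ x).2) fun g hg => by
      obtain ⟨x, hx⟩ := hsurj ⟨g, hg⟩
      exact ⟨x, congrArg Subtype.val hx⟩) (hπk ▸ hc)
  have hπτ : π.comp τ = S.θ := by
    refine PresentedGroup.ext fun x => ?_
    have h := hτ x.1 x.1.2 x.2
    have e : D.scGen F x.1 x.2 = PresentedGroup.of x := by
      simp only [ChevalleyDatum.scGen, ChevalleyDatum.stX, x.1.2, dite_true]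
      rfl
    rw [e] at h
    refine h.trans ?_
    rw [← e]
    exact (canon_X hD (relsAB_subset (D := D)) x.1.2 x.2).symm
  refine ⟨1, fun g => ⟨1, Subtype.ext ?_⟩⟩
  -- kernel elements are commutators, hence values of the lift
  have hr : (g : Γ) ∈ τ.range := by
    have hle : commutator Γ ≤ τ.range := by
      rw [commutator_eq_closure, Subgroup.closure_le]
      rintro _ ⟨a, b, rfl⟩
      have hsur : ∀ a : Γ, ∃ x, π (τ x) = π a := fun a => by
        obtain ⟨x, hx⟩ := (canon_range hD (relsAB_subset (D := D))).ge (σ a).2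
        exact ⟨x, (congrArg (fun f => f x) hπτ).trans hx⟩
      obtain ⟨x, hx⟩ := hsur a
      obtain ⟨y, hy⟩ := hsur b
      exact ⟨⁅x, y⁆, by rw [map_commutatorElement, bracket_congr π (hπk ▸ hc) hx hy]⟩
    exact hle (hder g.2)
  obtain ⟨x, hx⟩ := hr
  have : x ∈ S.θ.ker := by
    rw [MonoidHom.mem_ker, ← hπτ, MonoidHom.comp_apply, hx]
    show ((σ g.1 : ↥(D.group F)) : GL D.Idx F) = 1
    rw [MonoidHom.mem_ker.1 g.2]; rfl
  rw [hker, Subgroup.mem_bot] at this
  rw [← hx, this, map_one]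
  simp

end CfsgLib.Chev.Univ
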