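import Cfsg.Agent.Lib.Chev.Univ.TorusCerts
import Cfsg.Agent.Lib.Chev.Univ.Certs
import Cfsg.Agent.Lib.Chev.Abstract.Perfect

/-! The universal property of the group presented by (R1), (R2) over fields with more than four elements. -/
set_option autoImplicit false
set_option maxRecDepth 100000
open Cfsg.Lie
open scoped Matrix MatrixGroups commutatorElement

namespace CfsgLib.Chev.Univ

open CfsgLib.Chev CfsgLib.Chev.Checks CfsgLib.Chev.Basic CfsgLib.Chev.Abstract

variable {D : ChevalleyDatum} {F : Type*} [Field F]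

theorem hom_unique {Γ H B : Type*} [Group Γ] [Group H] [Group B] (hperf : commutator Γ = ⊤) (θ : H →* B)
    (hc : θ.ker ≤ Subgroup.center H) (f g : Γ →* H) (h : θ.comp f = θ.comp g) : f = g := by
  ext x
  have hx : x ∈ commutator Γ := hperf ▸ Subgroup.mem_top x
  have : commutator Γ ≤ f.eqLocus g := by
    rw [commutator_eq_closure, Subgroup.closure_le]
    rintro _ ⟨a, b, rfl⟩
    show f ⁅a, b⁆ = g ⁅a, b⁆
    rw [map_commutatorElement, map_commutatorElement]
    exact bracket_congr θ hc (congrArg (fun k => k a) h) (congrArg (fun k => k b) h)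
  exact this hx

/-- fields with more than four elements -/
theorem field_facts (hF : ∃ s : Finset F, 4 < s.card) :
    (∀ e : ℤ, e ≠ 0 → e.natAbs ≤ 3 → ∃ k : Fˣ, k ^ e ≠ 1) ∧ ∃ a : F, a ≠ 0 ∧ a ≠ 1 ∧ a * (1 - a) ≠ 1 := by
  classical
  obtain ⟨s, hs⟩ := hF
  refine ⟨fun e he hle => ?_, ?_⟩
  · by_contra hall
    push Not at hall
    have hsub : s.erase 0 ⊆ (Polynomial.nthRoots e.natAbs (1 : F)).toFinset := fun x hx => by
      rw [Finset.mem_erase] at hx
      rw [Multiset.mem_toFinset, Polynomial.mem_nthRoots (Int.natAbs_pos.2 he)]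
      have h := hall (Units.mk0 x hx.1)
      have h' : (Units.mk0 x hx.1) ^ e.natAbs = 1 := by
        rcases Int.natAbs_eq e with h2 | h2 <;> rw [h2] at h
        · simpa using h
        · simpa using h
      simpa using congrArg (fun k : Fˣ => (k : F)) h'
    have h1 := (Finset.card_le_card hsub).trans ((Multiset.toFinset_card_le _).trans (Polynomial.card_nthRoots _ _))
    have h2 := Finset.pred_card_le_card_erase (a := (0 : F)) (s := s)
    omega
  · by_contra hall
    push Not at hall
    have hex : ∀ T : Finset F, T.card ≤ 4 → ∃ x ∈ s, x ∉ T := fun T hT => by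
      by_contra hn
      push Not at hn
      have := Finset.card_le_card hn
      omega
    obtain ⟨r, -, hr⟩ := hex {0, 1} (le_trans Finset.card_le_two (by norm_num))
    simp only [Finset.mem_insert, Finset.mem_singleton, not_or] at hr
    have hr1 := hall r hr.1 hr.2
    obtain ⟨x, -, hx⟩ := hex {0, 1, r, 1 - r} Finset.card_le_four
    simp only [Finset.mem_insert, Finset.mem_singleton, not_or] at hx
    have hx1 := hall x hx.1 hx.2.1
    have : (x - r) * (1 - x - r) = 0 := by linear_combination hx1 - hr1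
    rcases mul_eq_zero.1 this with h | h
    · exact hx.2.2.1 (sub_eq_zero.1 h)
    · exact hx.2.2.2 (by linear_combination -h)

theorem big_holds (hF : ∃ s : Finset F, 4 < s.card) {two okB : Bool} (h2 : two = true → (2 : F) ≠ 0)
    (hB : okB = true → (2 : F) = 0) : (TorusLift.modeBig two okB).Holds F := by
  obtain ⟨hnz, a, a0, a1, a2⟩ := field_facts hF
  constructor
  · intro e he k; simp [TorusLift.modeBig] at he; simp [he]
  · intro e he; simp [TorusLift.modeBig] at he; exact hnz e he.1 he.2
  · exact fun _ => ⟨a, a0, a1, a2⟩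
  · intro h
    have h20 := hB h
    refine ⟨a * a, mul_ne_zero a0 a0, fun e => ?_, fun e => ?_, ⟨a, rfl⟩, ⟨1 - a, by linear_combination (a * a - a) * h20⟩⟩
    · have e' : (a - 1) * (a - 1) = 0 := by linear_combination e + (1 - a) * h20
      exact a1 (sub_eq_zero.1 (mul_self_eq_zero.1 e'))
    · have e' : (a * (1 - a) - 1) * (a * (1 - a) - 1) = 0 := by
        linear_combination e + ((a * a) * (a * a - a) - (a * (1 - a) - 1)) * h20
      exact a2 (sub_eq_zero.1 (mul_self_eq_zero.1 e'))
  · exact h2

theorem group_perfect (hF : ∃ a : F, a ≠ 0 ∧ a ≠ 1) (hD : D ∈ dataList) : commutator ↥(D.group F) = ⊤ := by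
  simp only [dataList, List.mem_cons, List.not_mem_nil, or_false] at hD
  rcases hD with rfl | rfl | rfl | rfl | rfl | rfl | rfl
  · exact Simple.perfect_small (Or.inl rfl) hF
  · exact Simple.perfect_small (Or.inr rfl) hF
  all_goals exact Simple.perfect_big (by simp)

theorem cover_perfect (hF : ∃ a : F, a ≠ 0 ∧ a ≠ 1) (hD : D ∈ dataList) : commutator (D.SteinbergCover F) = ⊤ := by
  let S := sys hD (R := D.steinbergRelsAB F) subset_rfl (canon hD relsAB_subset) fun _ hr t => canon_X hD _ hr t
  have hgen : S.Gen := sys_gen _ _ _ _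
  simp only [dataList, List.mem_cons, List.not_mem_nil, or_false] at hD
  rcases hD with rfl | rfl | rfl | rfl | rfl | rfl | rfl
  · exact S.perfect_small hgen (Or.inl rfl) hF
  · exact S.perfect_small hgen (Or.inr rfl) hF
  all_goals exact S.perfect_big hgen (by simp)

/-- lifting into a central extension of the Chevalley group -/
theorem splits {E : Type*} [Group E] (hD : D ∈ dataList) (hF : ∃ s : Finset F, 4 < s.card) (π : E →* GL D.Idx F)
    (hr : π.range = D.group F) (hc : π.ker ≤ Subgroup.center E) :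
    ∃ τ : D.SteinbergCover F →* E, ∀ r, r < D.nroots → ∀ t : F, π (τ (D.scGen F r t)) = xGL hD F r t := by
  have big : ∀ C (two okB : Bool), (two = true → (2 : F) ≠ 0) → (okB = true → (2 : F) = 0) →
      ((List.range D.nroots).all fun r => TorusLift.rootOK D (TorusLift.modeBig two okB) C r) = true →
      TorusLift.wsOK D C = true → ∃ τ : D.SteinbergCover F →* E, ∀ r, r < D.nroots → ∀ t : F,
        π (τ (D.scGen F r t)) = xGL hD F r t := fun C two okB h2 hB h hw =>
    TorusLift.exists_lift hD π hr.ge hc _ (big_holds hF h2 hB) C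
      (fun r hr => List.all_eq_true.1 h r (List.mem_range.2 hr)) hw
  have simply : ∀ C, certOK D C = true → ∃ τ : D.SteinbergCover F →* E, ∀ r, r < D.nroots → ∀ t : F,
        π (τ (D.scGen F r t)) = xGL hD F r t := fun C hC => by
    let T := sys hD (R := D.steinbergRelsAB F) subset_rfl (canon hD relsAB_subset) fun _ hr t => canon_X hD _ hr t
    let q := onto (F := F) hD (relsAB_subset (D := D))
    let SB : Sys hD F ↥(D.group F) :=
      { X := fun r t => q (T.X r t)
        add := fun r hr t u => by rw [← map_mul, T.add r hr]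
        comm := fun r s hr hs h1 h2 t u => by
          rw [← map_mul, T.comm r s hr hs h1 h2 t u, map_mul, map_mul, map_list_prod, List.map_map]
          rfl
        θ := (D.group F).subtype
        θX := fun r hr t => canon_X hD (relsAB_subset (D := D)) hr t }
    let π' : E →* ↥(D.group F) := π.codRestrict (D.group F) fun x => hr.le ⟨x, rfl⟩
    obtain ⟨τ, hτ⟩ := exists_splitting SB π' (fun g => by
      obtain ⟨x, hx⟩ := hr.ge g.2
      exact ⟨x, Subtype.ext hx⟩) ((MonoidHom.ker_codRestrict π (D.group F) _).le.trans hc) C hC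
    exact ⟨τ, fun r hr t => (congrArg Subtype.val (hτ r hr t)).trans (canon_X hD (relsAB_subset (D := D)) hr t)⟩
  simp only [dataList, List.mem_cons, List.not_mem_nil, or_false] at hD
  rcases hD with rfl | rfl | rfl | rfl | rfl | rfl | rfl
  · exact big TorusLift.tcG2 false false (by simp) (by simp) TorusLift.tcG2_big TorusLift.tcG2_ws
  · by_cases h2 : (2 : F) = 0
    · exact big TorusLift.tcB2 false true (by simp) (fun _ => h2) TorusLift.tcB2_even TorusLift.tcB2_ws
    · exact big TorusLift.tcB2 true false (fun _ => h2) (by simp) TorusLift.tcB2_odd TorusLift.tcB2_ws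
  · exact big TorusLift.tcD4 false false (by simp) (by simp) TorusLift.tcD4_big TorusLift.tcD4_ws
  · exact big TorusLift.tcF4 false false (by simp) (by simp) TorusLift.tcF4_big TorusLift.tcF4_ws
  · exact simply certE6 certE6_ok
  · exact simply certE7 certE7_ok
  · exact simply certE8 certE8_ok

theorem universal {G₁ E : Type*} [Group G₁] [Group E] (hD : D ∈ dataList) (hF : ∃ s : Finset F, 4 < s.card)
    (π₁ : E →* G₁) (hπ : Function.Surjective π₁) (hc : π₁.ker ≤ Subgroup.center E)
    (σ : D.SteinbergCover F →* G₁) : ∃! τ : D.SteinbergCover F →* E, π₁.comp τ = σ := by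
  have hF2 : ∃ a : F, a ≠ 0 ∧ a ≠ 1 := by
    obtain ⟨-, a, h0, h1, -⟩ := field_facts hF
    exact ⟨a, h0, h1⟩
  have hperf := cover_perfect hF2 hD
  let θ : D.SteinbergCover F →* GL D.Idx F := canon hD (relsAB_subset (D := D))
  have hθc : θ.ker ≤ Subgroup.center _ := ker_le_center' hD subset_rfl (relsAB_subset (D := D))
  have hθr : θ.range = D.group F := canon_range hD _
  let P : Subgroup (E × D.SteinbergCover F) := (π₁.comp (MonoidHom.fst E _)).eqLocus (σ.comp (MonoidHom.snd E _))
  let q : ↥P →* D.SteinbergCover F := (MonoidHom.snd E _).comp P.subtype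
  have hq : Function.Surjective q := fun d => by
    obtain ⟨e, he⟩ := hπ (σ d)
    exact ⟨⟨(e, d), he⟩, rfl⟩
  let π' : ↥(commutator ↥P) →* GL D.Idx F := (θ.comp q).comp (commutator ↥P).subtype
  have hr : π'.range = D.group F := by
    rw [← hθr]
    refine le_antisymm (fun _ ⟨x, hx⟩ => ⟨q x, hx⟩) ?_
    rintro _ ⟨d, rfl⟩
    have hmap : Subgroup.map q (commutator ↥P) = ⊤ := by
      rw [commutator_def, Subgroup.map_commutator, ← MonoidHom.range_eq_map, MonoidHom.range_eq_top.2 hq,
        ← commutator_def, hperf]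
    obtain ⟨x, hx, rfl⟩ : d ∈ Subgroup.map q (commutator ↥P) := hmap ▸ Subgroup.mem_top d
    exact ⟨⟨x, hx⟩, rfl⟩
  have hc' : π'.ker ≤ Subgroup.center _ := by
    intro z hz
    rw [Subgroup.mem_center_iff]
    have hz2 : q z.1 ∈ Subgroup.center (D.SteinbergCover F) := hθc hz
    have hbr : ∀ g : ↥P, ⁅(z.1 : ↥P), g⁆ ∈ Subgroup.center ↥P := fun g => by
      rw [Subgroup.mem_center_iff]
      intro k
      refine Subtype.ext (Prod.ext ?_ ?_)
      · have hk1 : ((⁅(z.1 : ↥P), g⁆ : ↥P) : E × D.SteinbergCover F).1 ∈ π₁.ker := by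
          rw [MonoidHom.mem_ker]
          have := (⁅(z.1 : ↥P), g⁆ : ↥P).2
          change π₁ _ = σ (q ⁅(z.1 : ↥P), g⁆) at this
          rw [map_commutatorElement, commutatorElement_eq_one_iff_commute.2
            (Subgroup.mem_center_iff.1 hz2 (q g)).symm, map_one] at this
          exact this
        exact Subgroup.mem_center_iff.1 (hc hk1) _
      · show q (k * _) = q (_ * k)
        rw [map_mul, map_mul, map_commutatorElement,
          commutatorElement_eq_one_iff_commute.2 (Subgroup.mem_center_iff.1 hz2 (q g)).symm, one_mul, mul_one]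
    intro w
    refine Subtype.ext ?_
    show (w.1 : ↥P) * z.1 = z.1 * w.1
    let f : ↥P →* Subgroup.center ↥P := MonoidHom.mk' (fun g => ⟨⁅(z.1 : ↥P), g⁆, hbr g⟩) fun a b => Subtype.ext (by
      show ⁅(z.1 : ↥P), a * b⁆ = ⁅(z.1 : ↥P), a⁆ * ⁅(z.1 : ↥P), b⁆
      rw [show ⁅(z.1 : ↥P), a * b⁆ = ⁅(z.1 : ↥P), a⁆ * (a * ⁅(z.1 : ↥P), b⁆ * a⁻¹) by
        simp only [commutatorElement_def]; group, Subgroup.mem_center_iff.1 (hbr b) a, mul_inv_cancel_right])
    have hker : commutator ↥P ≤ f.ker := by
      rw [commutator_eq_closure, Subgroup.closure_le]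
      rintro _ ⟨a, b, rfl⟩
      rw [SetLike.mem_coe, MonoidHom.mem_ker, map_commutatorElement, commutatorElement_eq_one_iff_commute]
      exact Subtype.ext (Subgroup.mem_center_iff.1 (f b).2 _)
    exact (commutatorElement_eq_one_iff_commute.1 (congrArg Subtype.val (MonoidHom.mem_ker.1 (hker w.2)))).symm
  obtain ⟨τ', hτ'⟩ := splits hD hF π' hr hc'
  have hid : q.comp ((commutator ↥P).subtype.comp τ') = MonoidHom.id _ := by
    refine hom_unique hperf θ hθc _ _ ?_
    refine PresentedGroup.ext fun x => ?_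
    have h := hτ' x.1 x.1.2 x.2
    have e : D.scGen F x.1 x.2 = PresentedGroup.of x := by
      simp only [ChevalleyDatum.scGen, ChevalleyDatum.stX, x.1.2, dite_true]
      rfl
    rw [e] at h
    refine h.trans ?_
    rw [MonoidHom.comp_apply, MonoidHom.id_apply, ← e]
    exact (canon_X hD (relsAB_subset (D := D)) x.1.2 x.2).symm
  let τ := ((MonoidHom.fst E _).comp P.subtype).comp ((commutator ↥P).subtype.comp τ')
  have hτ : π₁.comp τ = σ := by
    refine MonoidHom.ext fun d => ?_
    have := ((τ' d).1).2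
    change π₁ _ = σ (q _) at this
    refine this.trans ?_
    exact congrArg σ (congrArg (fun k => k d) hid)
  exact ⟨τ, hτ, fun τ₂ h₂ => hom_unique hperf π₁ hc _ _ (h₂.trans hτ.symm)⟩

end CfsgLib.Chev.Univ
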